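import Cfsg.Prelude.Def_Spor_J2

/-!
# Exact arithmetic for the icosians

Numerators in `ℤ[τ]`, `τ² = τ + 1`, of quaternions over `ℚ(√5)`.
-/

set_option autoImplicit false
set_option linter.unusedSectionVars false

namespace Cfsg.Agent.Lib.J2Ico

open Cfsg.Spor Quaternion

theorem sqrt5_sq : Real.sqrt 5 * Real.sqrt 5 = 5 := Real.mul_self_sqrt (by norm_num)

theorem tau_sq : tau * tau = tau + 1 := by
  unfold tau
  have := sqrt5_sq
  nlinarith

theorem sig_eq : sig = 1 - tau := by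
  unfold sig tau
  ring

theorem sqrt5_eq : Real.sqrt 5 = 2 * tau - 1 := by
  unfold tau
  ring

theorem irrational_sqrt5 : Irrational (Real.sqrt 5) := by
  have : Nat.Prime 5 := by norm_num
  exact this.irrational_sqrt

theorem irrational_tau : Irrational tau := by
  have h := irrational_sqrt5
  have e : tau = (1 + Real.sqrt 5) / 2 := rfl
  rw [e]
  have h1 : Irrational (1 + Real.sqrt 5) := by
    simpa using h.ratCast_add 1
  have h2 := h1.div_ratCast (q := 2) (by norm_num)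
  simpa using h2

/-- Linear independence of `1`, `τ` over the integers. -/
theorem int_indep {a b : ℤ} (h : (a : ℝ) + b * tau = 0) : a = 0 ∧ b = 0 := by
  have hb : b = 0 := by
    by_contra hb
    have hb' : (b : ℝ) ≠ 0 := by exact_mod_cast hb
    have e : tau = ((-a / b : ℚ) : ℝ) := by
      push_cast
      field_simp
      linarith
    exact irrational_tau ⟨_, e.symm⟩
  subst hb
  refine ⟨?_, rfl⟩
  simpa using h

theorem int_eq_of_eq {a b c d : ℤ} (h : (a : ℝ) + b * tau = c + d * tau) : a = c ∧ b = d := by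
  have h1 : ((a - c : ℤ) : ℝ) + ((b - d : ℤ) : ℝ) * tau = 0 := by
    push_cast
    linarith
  obtain ⟨h2, h3⟩ := int_indep h1
  omega

/-- Numerators of a quaternion: coordinates `(a₀ + b₀ τ, a₁ + b₁ τ, a₂ + b₂ τ, a₃ + b₃ τ)`. -/
structure Q8 where
  a0 : ℤ
  b0 : ℤ
  a1 : ℤ
  b1 : ℤ
  a2 : ℤ
  b2 : ℤ
  a3 : ℤ
  b3 : ℤ
  deriving DecidableEq

namespace Q8

@[ext] theorem ext' {x y : Q8} (h0 : x.a0 = y.a0) (h1 : x.b0 = y.b0) (h2 : x.a1 = y.a1) (h3 : x.b1 = y.b1)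
    (h4 : x.a2 = y.a2) (h5 : x.b2 = y.b2) (h6 : x.a3 = y.a3) (h7 : x.b3 = y.b3) : x = y := by
  cases x; cases y; simp_all

/-- The quaternion with the given numerators over the real denominator `d`. -/
noncomputable def ev (d : ℝ) (x : Q8) : ℍ[ℝ] :=
  ⟨(x.a0 + x.b0 * tau) / d, (x.a1 + x.b1 * tau) / d, (x.a2 + x.b2 * tau) / d, (x.a3 + x.b3 * tau) / d⟩

/-- Sum. -/
def add (x y : Q8) : Q8 :=
  ⟨x.a0 + y.a0, x.b0 + y.b0, x.a1 + y.a1, x.b1 + y.b1, x.a2 + y.a2, x.b2 + y.b2, x.a3 + y.a3, x.b3 + y.b3⟩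

/-- Difference. -/
def sub (x y : Q8) : Q8 :=
  ⟨x.a0 - y.a0, x.b0 - y.b0, x.a1 - y.a1, x.b1 - y.b1, x.a2 - y.a2, x.b2 - y.b2, x.a3 - y.a3, x.b3 - y.b3⟩

/-- Negative. -/
def neg (x : Q8) : Q8 :=
  ⟨-x.a0, -x.b0, -x.a1, -x.b1, -x.a2, -x.b2, -x.a3, -x.b3⟩

/-- Integer multiple. -/
def smul (k : ℤ) (x : Q8) : Q8 :=
  ⟨k * x.a0, k * x.b0, k * x.a1, k * x.b1, k * x.a2, k * x.b2, k * x.a3, k * x.b3⟩

/-- Conjugate. -/
def conj (x : Q8) : Q8 :=
  ⟨x.a0, x.b0, -x.a1, -x.b1, -x.a2, -x.b2, -x.a3, -x.b3⟩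

/-- Rational part of a product in `ℤ[τ]`. -/
@[inline] def mR (a b c d : ℤ) : ℤ := a * c + b * d

/-- `τ`-part of a product in `ℤ[τ]`. -/
@[inline] def mT (a b c d : ℤ) : ℤ := a * d + b * c + b * d

/-- Product of numerators. -/
def mul (x y : Q8) : Q8 :=
  ⟨mR x.a0 x.b0 y.a0 y.b0 - mR x.a1 x.b1 y.a1 y.b1 - mR x.a2 x.b2 y.a2 y.b2 - mR x.a3 x.b3 y.a3 y.b3,
   mT x.a0 x.b0 y.a0 y.b0 - mT x.a1 x.b1 y.a1 y.b1 - mT x.a2 x.b2 y.a2 y.b2 - mT x.a3 x.b3 y.a3 y.b3,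
   mR x.a0 x.b0 y.a1 y.b1 + mR x.a1 x.b1 y.a0 y.b0 + mR x.a2 x.b2 y.a3 y.b3 - mR x.a3 x.b3 y.a2 y.b2,
   mT x.a0 x.b0 y.a1 y.b1 + mT x.a1 x.b1 y.a0 y.b0 + mT x.a2 x.b2 y.a3 y.b3 - mT x.a3 x.b3 y.a2 y.b2,
   mR x.a0 x.b0 y.a2 y.b2 - mR x.a1 x.b1 y.a3 y.b3 + mR x.a2 x.b2 y.a0 y.b0 + mR x.a3 x.b3 y.a1 y.b1,
   mT x.a0 x.b0 y.a2 y.b2 - mT x.a1 x.b1 y.a3 y.b3 + mT x.a2 x.b2 y.a0 y.b0 + mT x.a3 x.b3 y.a1 y.b1,
   mR x.a0 x.b0 y.a3 y.b3 + mR x.a1 x.b1 y.a2 y.b2 - mR x.a2 x.b2 y.a1 y.b1 + mR x.a3 x.b3 y.a0 y.b0,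
   mT x.a0 x.b0 y.a3 y.b3 + mT x.a1 x.b1 y.a2 y.b2 - mT x.a2 x.b2 y.a1 y.b1 + mT x.a3 x.b3 y.a0 y.b0⟩

variable {d d' : ℝ}

theorem ev_mul (hd : d ≠ 0) (hd' : d' ≠ 0) (x y : Q8) : ev d x * ev d' y = ev (d * d') (mul x y) := by
  have h := tau_sq
  apply Quaternion.ext
  · rw [Quaternion.re_mul]
    simp only [ev, mul, mR, mT]
    push_cast
    field_simp
    linear_combination (x.b0 * y.b0 - x.b1 * y.b1 - x.b2 * y.b2 - x.b3 * y.b3 : ℝ) * h
  · rw [Quaternion.imI_mul]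
    simp only [ev, mul, mR, mT]
    push_cast
    field_simp
    linear_combination (x.b0 * y.b1 + x.b1 * y.b0 + x.b2 * y.b3 - x.b3 * y.b2 : ℝ) * h
  · rw [Quaternion.imJ_mul]
    simp only [ev, mul, mR, mT]
    push_cast
    field_simp
    linear_combination (x.b0 * y.b2 - x.b1 * y.b3 + x.b2 * y.b0 + x.b3 * y.b1 : ℝ) * h
  · rw [Quaternion.imK_mul]
    simp only [ev, mul, mR, mT]
    push_cast
    field_simp
    linear_combination (x.b0 * y.b3 + x.b1 * y.b2 - x.b2 * y.b1 + x.b3 * y.b0 : ℝ) * h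

theorem ev_add (x y : Q8) : ev d x + ev d y = ev d (add x y) := by
  apply Quaternion.ext
  · rw [Quaternion.re_add]; simp only [ev, add]; push_cast; ring
  · rw [Quaternion.imI_add]; simp only [ev, add]; push_cast; ring
  · rw [Quaternion.imJ_add]; simp only [ev, add]; push_cast; ring
  · rw [Quaternion.imK_add]; simp only [ev, add]; push_cast; ring

theorem ev_sub (x y : Q8) : ev d x - ev d y = ev d (sub x y) := by
  apply Quaternion.ext
  · rw [Quaternion.re_sub]; simp only [ev, sub]; push_cast; ring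
  · rw [Quaternion.imI_sub]; simp only [ev, sub]; push_cast; ring
  · rw [Quaternion.imJ_sub]; simp only [ev, sub]; push_cast; ring
  · rw [Quaternion.imK_sub]; simp only [ev, sub]; push_cast; ring

theorem ev_neg (x : Q8) : - ev d x = ev d (neg x) := by
  apply Quaternion.ext
  · rw [Quaternion.re_neg]; simp only [ev, neg]; push_cast; ring
  · rw [Quaternion.imI_neg]; simp only [ev, neg]; push_cast; ring
  · rw [Quaternion.imJ_neg]; simp only [ev, neg]; push_cast; ring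
  · rw [Quaternion.imK_neg]; simp only [ev, neg]; push_cast; ring

theorem ev_conj (x : Q8) : star (ev d x) = ev d (conj x) := by
  apply Quaternion.ext
  · rw [Quaternion.re_star]; simp only [ev, conj]
  · rw [Quaternion.imI_star]; simp only [ev, conj]; push_cast; ring
  · rw [Quaternion.imJ_star]; simp only [ev, conj]; push_cast; ring
  · rw [Quaternion.imK_star]; simp only [ev, conj]; push_cast; ring

theorem ev_smul {k : ℤ} (hk : (k : ℝ) ≠ 0) (x : Q8) : ev (k * d) (smul k x) = ev d x := by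
  apply Quaternion.ext
  · simp only [ev, smul]; push_cast; rw [← mul_div_mul_left _ d hk]; ring_nf
  · simp only [ev, smul]; push_cast; rw [← mul_div_mul_left _ d hk]; ring_nf
  · simp only [ev, smul]; push_cast; rw [← mul_div_mul_left _ d hk]; ring_nf
  · simp only [ev, smul]; push_cast; rw [← mul_div_mul_left _ d hk]; ring_nf

theorem ev_inj (hd : d ≠ 0) {x y : Q8} (h : ev d x = ev d y) : x = y := by
  have h0 := congrArg QuaternionAlgebra.re h
  have h1 := congrArg QuaternionAlgebra.imI h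
  have h2 := congrArg QuaternionAlgebra.imJ h
  have h3 := congrArg QuaternionAlgebra.imK h
  simp only [ev] at h0 h1 h2 h3
  rw [div_left_inj' hd] at h0 h1 h2 h3
  obtain ⟨e0, e1⟩ := int_eq_of_eq h0
  obtain ⟨e2, e3⟩ := int_eq_of_eq h1
  obtain ⟨e4, e5⟩ := int_eq_of_eq h2
  obtain ⟨e6, e7⟩ := int_eq_of_eq h3
  exact ext' e0 e1 e2 e3 e4 e5 e6 e7

end Q8

end Cfsg.Agent.Lib.J2Ico
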