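import Cfsg.Agent.Lib.PermComp.Chain
import Cfsg.Agent.Lib.PGroups.Special

/-!
# Checking that a small permutation group is extraspecial from the list of its elements
-/

set_option autoImplicit false

namespace Cfsg.Agent.Lib.J2Ico.Extra

open Cfsg.Agent.Lib.PermComp Cfsg.Agent.Lib.PGroups.Special
open scoped commutatorElement

/-- The checks on the list of elements. -/
noncomputable def extraOK (n w mask idc z : ℕ) (T L : List ℕ) : Bool :=
  Core.ifB (Core.memN idc L) <|
  Core.ifB (Core.allL (fun a => Core.allL (fun c => Core.memN (Core.comp n w mask a c) L) L) T) <|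
  Core.ifB (Core.allL (fun c => Core.allL (fun d =>
    Core.force (Core.comp n w mask c d) fun x => Core.force (Core.comp n w mask d c) fun y =>
      Nat.beq x y || Nat.beq x (Core.comp n w mask z y)) L) L) <|
  Core.ifB (Core.allL (fun c => Core.force (Core.comp n w mask c c) fun x => Nat.beq x idc || Nat.beq x z) L) <|
  Core.ifB (Core.allL (fun c => Nat.beq (Core.comp n w mask c z) (Core.comp n w mask z c)) L) <|
  Core.allL (fun c => Nat.beq c idc || Nat.beq c z ||
    T.any (fun a => !(Nat.beq (Core.comp n w mask a c) (Core.comp n w mask c a)))) L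

variable {n w mask idc z : ℕ} {α : Type*} [Finite α] {e : α ≃ Fin n} {T L : List ℕ}

theorem rep_of_mem (h : extraOK n w mask idc z T L = true) (hm : mask = 2 ^ w - 1)
    (hid : ∀ i < n, Core.app w mask idc i = i) {g : Equiv.Perm α} (hg : g ∈ Core.H w mask e T) :
    ∃ c ∈ L, Core.Rep w mask e c g := by
  simp only [extraOK, Core.ifB_eq_true] at h
  obtain ⟨h1, h2, -⟩ := h
  have h1' := (Core.memN_eq_true _ _).1 h1
  refine Core.closure_induction_left_finite (P := fun g => ∃ c ∈ L, Core.Rep w mask e c g)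
    ⟨idc, h1', Core.rep_one hid⟩ ?_ hg
  rintro s ⟨a, ha, hs⟩ k ⟨c, hc, hk⟩
  refine ⟨_, ?_, hs.comp hm hk⟩
  exact (Core.memN_eq_true _ _).1 ((Core.allL_eq_true _ _).1 ((Core.allL_eq_true _ _).1 h2 a ha) c hc)

/-- A group with the checks is extraspecial. -/
theorem isExtraspecial_of_check (h : extraOK n w mask idc z T L = true) (hm : mask = 2 ^ w - 1)
    (hid : ∀ i < n, Core.app w mask idc i = i) (hT : ∀ c ∈ T, ∃ g, Core.Rep w mask e c g)
    {Z : Equiv.Perm α} (hZ : Z ∈ Core.H w mask e T) (hzr : Core.Rep w mask e z Z) (hZ1 : Z ≠ 1)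
    (hcard : Nat.card (Core.H w mask e T) = 32) :
    IsExtraspecial 2 (Core.H w mask e T) := by
  have hcode := fun {g : Equiv.Perm α} (hg : g ∈ Core.H w mask e T) => rep_of_mem (e := e) h hm hid hg
  simp only [extraOK, Core.ifB_eq_true] at h
  obtain ⟨-, -, h3, h4, h5, h6⟩ := h
  set Q := Core.H w mask e T with hQ
  have : Finite Q := Finite.of_injective _ Subtype.val_injective
  have hone := Core.rep_one (e := e) hid
  -- `Z` is central
  let Z' : Q := ⟨Z, hZ⟩
  have hZc : Z' ∈ Subgroup.center Q := by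
    rw [Subgroup.mem_center_iff]
    rintro ⟨x, hx⟩
    obtain ⟨c, hc, hr⟩ := hcode hx
    have h7 := Nat.eq_of_beq_eq_true ((Core.allL_eq_true _ _).1 h5 c hc)
    have h8 := hr.comp hm hzr
    rw [h7] at h8
    exact Subtype.ext (h8.unique (hzr.comp hm hr))
  -- the centre
  have hcen : ∀ x : Q, x ∈ Subgroup.center Q → x = 1 ∨ x = Z' := by
    rintro ⟨x, hx⟩ hxc
    obtain ⟨c, hc, hr⟩ := hcode hx
    have h7 := (Core.allL_eq_true _ _).1 h6 c hc
    simp only [Bool.or_eq_true, List.any_eq_true] at h7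
    rcases h7 with (h7 | h7) | ⟨a, ha, h7⟩
    · left
      exact Subtype.ext (hr.eq_one hid (Nat.eq_of_beq_eq_true h7))
    · right
      have h8 := Nat.eq_of_beq_eq_true h7
      subst h8
      exact Subtype.ext (hr.unique hzr)
    · exfalso
      obtain ⟨g, hg⟩ := hT a ha
      have hgQ : g ∈ Q := Core.H_of_rep ha hg
      have h8 := Subgroup.mem_center_iff.1 hxc ⟨g, hgQ⟩
      have h9 : g * x = x * g := congrArg Subtype.val h8
      have h10 := hg.comp hm hr
      have h11 := hr.comp hm hg
      have h12 : Core.comp n w mask a c = Core.comp n w mask c a := by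
        apply Core.eq_of_digits hm n _ _ (Core.comp_lt hm n _ _) (Core.comp_lt hm n _ _)
        intro i hi
        have h13 := h10 (e.symm ⟨i, hi⟩)
        have h14 := h11 (e.symm ⟨i, hi⟩)
        simp only [Equiv.apply_symm_apply] at h13 h14
        rw [h13, h14, h9]
      rw [h12] at h7
      simp at h7
  have hne : Z' ≠ 1 := fun h => hZ1 (congrArg Subtype.val h)
  have hcc : Nat.card (Subgroup.center Q) = 2 := by
    have h1 : ((Subgroup.center Q : Subgroup Q) : Set Q) = {1, Z'} := by
      ext t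
      constructor
      · exact hcen t
      · rintro (rfl | rfl)
        · exact one_mem _
        · exact hZc
    have h2 : Nat.card (Subgroup.center Q) = Set.ncard ((Subgroup.center Q : Subgroup Q) : Set Q) :=
      Nat.card_coe_set_eq _
    rw [h2, h1, Set.ncard_pair hne.symm]
  have hcomm : ∀ x y : Q, ⁅x, y⁆ ∈ Subgroup.center Q := by
    rintro ⟨x, hx⟩ ⟨y, hy⟩
    obtain ⟨c, hc, hr⟩ := hcode hx
    obtain ⟨d, hd, hs⟩ := hcode hy
    have h7 := (Core.allL_eq_true _ _).1 ((Core.allL_eq_true _ _).1 h3 c hc) d hd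
    rw [Core.force_eq, Core.force_eq, Bool.or_eq_true] at h7
    have r1 := hr.comp hm hs
    have r2 := hs.comp hm hr
    rcases h7 with h7 | h7
    · have h8 := Nat.eq_of_beq_eq_true h7
      rw [h8] at r1
      have h9 : x * y = y * x := r1.unique r2
      have h10 : ⁅(⟨x, hx⟩ : Q), (⟨y, hy⟩ : Q)⁆ = 1 := by
        rw [commutatorElement_eq_one_iff_mul_comm]
        exact Subtype.ext h9
      rw [h10]
      exact one_mem _
    · have h8 := Nat.eq_of_beq_eq_true h7
      rw [h8] at r1
      have h9 : x * y = Z * (y * x) := r1.unique (hzr.comp hm r2)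
      have h10 : ⁅(⟨x, hx⟩ : Q), (⟨y, hy⟩ : Q)⁆ = Z' := by
        apply Subtype.ext
        show x * y * x⁻¹ * y⁻¹ = Z
        rw [h9]
        group
      rw [h10]
      exact hZc
  have hpow : ∀ x : Q, x ^ 2 ∈ Subgroup.center Q := by
    rintro ⟨x, hx⟩
    obtain ⟨c, hc, hr⟩ := hcode hx
    have h7 := (Core.allL_eq_true _ _).1 h4 c hc
    rw [Core.force_eq, Bool.or_eq_true] at h7
    have r1 := hr.comp hm hr
    rcases h7 with h7 | h7
    · have h9 : x * x = 1 := r1.eq_one hid (Nat.eq_of_beq_eq_true h7)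
      have h10 : (⟨x, hx⟩ : Q) ^ 2 = 1 := by
        apply Subtype.ext
        show x ^ 2 = 1
        rw [pow_two, h9]
      rw [h10]
      exact one_mem _
    · have h8 := Nat.eq_of_beq_eq_true h7
      rw [h8] at r1
      have h9 : x * x = Z := r1.unique hzr
      have h10 : (⟨x, hx⟩ : Q) ^ 2 = Z' := by
        apply Subtype.ext
        show x ^ 2 = Z
        rw [pow_two, h9]
      rw [h10]
      exact hZc
  have : Fact (Nat.Prime 2) := ⟨Nat.prime_two⟩
  have hL : ExtraLike 2 Q := ⟨IsPGroup.of_card (n := 5) (by rw [hcard]; norm_num), hcc, hcomm, hpow⟩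
  apply hL.isExtraspecial
  intro hc
  have h7 : Subgroup.center Q = ⊤ := by
    rw [eq_top_iff]
    intro x _
    rw [Subgroup.mem_center_iff]
    intro y
    exact hc.is_comm.comm y x
  rw [h7, Subgroup.card_top, hcard] at hcc
  norm_num at hcc

end Cfsg.Agent.Lib.J2Ico.Extra
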