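import Cfsg.Agent.Lib.PermComp.Chain

/-!
# Homomorphisms induced on a family of subsets

A permutation group acting on the points of a family of subsets, given by a checkable relation, acts on the indices
of the family.  For a group given by generators (codes) this gives a homomorphism with a known range.
-/

set_option autoImplicit false

namespace Cfsg.Agent.Lib.J2Ico.Induced

open Cfsg.Agent.Lib.PermComp

variable {α ι : Type*}

/-- The permutation `σ` of the indices is induced by the permutation `g` of the points. -/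
def InvR (R : α → ι → Prop) (g : Equiv.Perm α) (σ : Equiv.Perm ι) : Prop :=
  ∀ x i, R x i ↔ R (g x) (σ i)

theorem InvR.one (R : α → ι → Prop) : InvR R 1 1 := fun _ _ => Iff.rfl

theorem InvR.mul {R : α → ι → Prop} {g h : Equiv.Perm α} {σ τ : Equiv.Perm ι} (h1 : InvR R g σ)
    (h2 : InvR R h τ) : InvR R (g * h) (σ * τ) :=
  fun x i => (h2 x i).trans (h1 (h x) (τ i))

theorem InvR.unique {R : α → ι → Prop} (hR : ∀ i j, (∀ x, R x i ↔ R x j) → i = j) {g : Equiv.Perm α}
    {σ τ : Equiv.Perm ι} (h1 : InvR R g σ) (h2 : InvR R g τ) : σ = τ := by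
  ext1 i
  apply hR
  intro y
  have e1 := h1 (g⁻¹ y) i
  have e2 := h2 (g⁻¹ y) i
  have e3 : g (g⁻¹ y) = y := by simp
  rw [e3] at e1 e2
  exact e1.symm.trans e2

/-- The induced homomorphism. -/
theorem exists_hom [Finite α] (R : α → ι → Prop) (hR : ∀ i j, (∀ x, R x i ↔ R x j) → i = j)
    (S : Set (Equiv.Perm α)) (T : Set (Equiv.Perm ι))
    (hS : ∀ s ∈ S, ∃ t ∈ T, InvR R s t) (hT : ∀ t ∈ T, ∃ s ∈ S, InvR R s t)
    (K : Subgroup (Equiv.Perm α)) (hK : K = Subgroup.closure S) (K' : Subgroup (Equiv.Perm ι))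
    (hK' : K' = Subgroup.closure T) :
    ∃ φ : K →* Equiv.Perm ι, (∀ g, InvR R g.1 (φ g)) ∧ φ.range = K' := by
  subst hK hK'
  have hex : ∀ g ∈ Subgroup.closure S, ∃ σ, σ ∈ Subgroup.closure T ∧ InvR R g σ := by
    intro g hg
    refine Core.closure_induction_left_finite (P := fun g => ∃ σ, σ ∈ Subgroup.closure T ∧ InvR R g σ)
      ⟨1, one_mem _, InvR.one R⟩ ?_ hg
    rintro s hs h ⟨σ, hσ, hinv⟩
    obtain ⟨t, ht, hst⟩ := hS s hs
    exact ⟨t * σ, mul_mem (Subgroup.subset_closure ht) hσ, hst.mul hinv⟩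
  choose f hf1 hf2 using hex
  let φ : Subgroup.closure S →* Equiv.Perm ι :=
    { toFun := fun g => f g.1 g.2
      map_one' := (hf2 1 (one_mem _)).unique hR (InvR.one R)
      map_mul' := fun a b => (hf2 _ (mul_mem a.2 b.2)).unique hR ((hf2 _ a.2).mul (hf2 _ b.2)) }
  refine ⟨φ, fun g => hf2 _ g.2, ?_⟩
  apply le_antisymm
  · rintro _ ⟨g, rfl⟩
    exact hf1 _ g.2
  · refine (Subgroup.closure_le _).2 ?_
    intro t ht
    obtain ⟨s, hs, hst⟩ := hT t ht
    have h1 : s ∈ Subgroup.closure S := Subgroup.subset_closure hs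
    exact ⟨⟨s, h1⟩, (hf2 s h1).unique hR hst⟩

variable {n n' : ℕ} {w mask w' mask' : ℕ} {e : α ≃ Fin n} {e' : ι ≃ Fin n'}

/-- The induced homomorphism for groups given by codes. -/
theorem exists_hom_of_pairs [Finite α] (R : α → ι → Prop) (hR : ∀ i j, (∀ x, R x i ↔ R x j) → i = j)
    (P : List (ℕ × ℕ))
    (h1 : ∀ p ∈ P, ∃ g, Core.Rep w mask e p.1 g) (h2 : ∀ p ∈ P, ∃ σ, Core.Rep w' mask' e' p.2 σ)
    (h3 : ∀ p ∈ P, ∀ g σ, Core.Rep w mask e p.1 g → Core.Rep w' mask' e' p.2 σ → InvR R g σ) :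
    ∃ φ : Core.H w mask e (P.map (·.1)) →* Equiv.Perm ι, (∀ g, InvR R g.1 (φ g)) ∧
      φ.range = Core.H w' mask' e' (P.map (·.2)) := by
  have hK : Core.H w mask e (P.map (·.1)) = Subgroup.closure {g | ∃ c ∈ P.map (·.1), Core.Rep w mask e c g} := rfl
  have hK' : Core.H w' mask' e' (P.map (·.2)) = Subgroup.closure {g | ∃ c ∈ P.map (·.2), Core.Rep w' mask' e' c g} := rfl
  refine exists_hom R hR _ _ ?_ ?_ _ hK _ hK'
  · rintro s ⟨c, hc, hs⟩
    obtain ⟨p, hp, rfl⟩ := List.mem_map.1 hc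
    obtain ⟨σ, hσ⟩ := h2 p hp
    exact ⟨σ, ⟨p.2, List.mem_map.2 ⟨p, hp, rfl⟩, hσ⟩, h3 p hp _ _ hs hσ⟩
  · rintro s ⟨c, hc, hs⟩
    obtain ⟨p, hp, rfl⟩ := List.mem_map.1 hc
    obtain ⟨g, hg⟩ := h1 p hp
    exact ⟨g, ⟨p.1, List.mem_map.2 ⟨p, hp, rfl⟩, hg⟩, h3 p hp _ _ hg hs⟩

/-- Equality of Booleans, for the kernel. -/
def bEq (a b : Bool) : Bool := Bool.rec (Bool.rec true false b) (Bool.rec false true b) a

theorem bEq_eq_true {a b : Bool} : bEq a b = true ↔ a = b := by
  cases a <;> cases b <;> simp [bEq]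

/-- The check of a pair of codes against a Boolean relation. -/
noncomputable def pairOK (n n' w mask w' mask' : ℕ) (r : ℕ → ℕ → Bool) (p : ℕ × ℕ) : Bool :=
  Core.allL (fun x => Core.allL (fun i =>
    bEq (r x i) (r (Core.app w mask p.1 x) (Core.app w' mask' p.2 i))) (List.range n')) (List.range n)

/-- The relation of a Boolean function. -/
def relOf (e : α ≃ Fin n) (e' : ι ≃ Fin n') (r : ℕ → ℕ → Bool) (x : α) (i : ι) : Prop :=
  r (e x) (e' i) = true

theorem invR_of_pairOK {r : ℕ → ℕ → Bool} {p : ℕ × ℕ} (h : pairOK n n' w mask w' mask' r p = true)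
    {g : Equiv.Perm α} {σ : Equiv.Perm ι} (hg : Core.Rep w mask e p.1 g) (hσ : Core.Rep w' mask' e' p.2 σ) :
    InvR (relOf e e' r) g σ := by
  intro x i
  have h1 := (Core.allL_eq_true _ _).1 h (e x) (List.mem_range.2 (e x).2)
  have h2 := (Core.allL_eq_true _ _).1 h1 (e' i) (List.mem_range.2 (e' i).2)
  rw [hg x, hσ i] at h2
  have h3 := bEq_eq_true.1 h2
  show r _ _ = true ↔ r _ _ = true
  rw [h3]

/-- The check that the relation separates the indices. -/
def sepOK (n n' : ℕ) (r : ℕ → ℕ → Bool) : Bool :=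
  (List.range n').all fun i => (List.range n').all fun j =>
    Nat.beq i j || (List.range n).any fun x => !(bEq (r x i) (r x j))

theorem sep_of_sepOK {r : ℕ → ℕ → Bool} (h : sepOK n n' r = true) (i j : ι)
    (hij : ∀ x, relOf e e' r x i ↔ relOf e e' r x j) : i = j := by
  simp only [sepOK, List.all_eq_true, List.mem_range] at h
  have h1 := h (e' i) (e' i).2 (e' j) (e' j).2
  rw [Bool.or_eq_true, List.any_eq_true] at h1
  rcases h1 with h1 | ⟨x, hx, h2⟩
  · exact e'.injective (Fin.ext (Nat.eq_of_beq_eq_true h1))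
  · exfalso
    have hx' := List.mem_range.1 hx
    have h3 := hij (e.symm ⟨x, hx'⟩)
    simp only [relOf, Equiv.apply_symm_apply] at h3
    have h4 : r x (e' i) = r x (e' j) := by
      cases h5 : r x (e' i) <;> cases h6 : r x (e' j) <;> simp_all
    have h5 : bEq (r x (e' i)) (r x (e' j)) = true := bEq_eq_true.2 h4
    rw [h5] at h2
    exact absurd h2 (by decide)

end Cfsg.Agent.Lib.J2Ico.Induced
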