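import Cfsg.Agent.Lib.J2Ico.Quot
import Cfsg.Agent.Lib.J2Ico.CertQ
import Cfsg.Agent.Lib.J2Ico.Induced
import Cfsg.Agent.Lib.J2Ico.Extra

/-!
# The centralizer of a reflection in the Hall-Janko group
-/

set_option autoImplicit false
set_option linter.unusedSectionVars false
set_option linter.constructorNameAsVariable false

noncomputable section

namespace Cfsg.Agent.Lib.J2Ico

open Cfsg.Spor Quaternion Cfsg.Agent.Lib.PermComp Cfsg.Agent.Lib.J2Ico.Cert Cfsg.Agent.Lib.J2Ico.CertQ
  Cfsg.Agent.Lib.PGroups.Special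

namespace Q8

/-! ### The stabilizer of the point 281 and the five blocks -/

/-- The stabilizer of the point 281. -/
def H1 : Subgroup (Equiv.Perm (Fin 315)) := Core.H j2p_w j2p_mask e315 j2p_G_lev1.gens

theorem sem_H1 : Core.Sem j2p_w j2p_mask e315 j2p_L j2p_maskL [j2p_G_lev1, j2p_G_lev2] := sem_levels.2

theorem stab_Hg : Hg ⊓ MulAction.stabilizer (Equiv.Perm (Fin 315)) (281 : Fin 315) = H1 := by
  rw [Hg_eq]
  exact Chain.stab_eq lev0_sem rfl

theorem order_H1 : Core.orderC [j2p_G_lev1, j2p_G_lev2] = 1920 := by decide +kernel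

theorem card_H1 : Nat.card H1 = 1920 :=
  (Core.card_of_sem [j2p_G_lev1, j2p_G_lev2] sem_H1).trans order_H1

/-- The relation between points and blocks. -/
def rB (x i : ℕ) : Bool := Core.memN (x * 8 + i) blkC

/-- The indexing of the five blocks. -/
def e5 : Fin 5 ≃ Fin p5_n := Equiv.refl _

/-- The strong generators and their actions on the blocks. -/
def Pq : List (ℕ × ℕ) := [(j2p_G_s1, t5c_T_0), (j2p_G_s2, t5c_T_1), (j2p_G_s3, t5c_T_2)]

theorem Pq_ok : Core.allL (Induced.pairOK j2p_n p5_n j2p_w j2p_mask p5_w p5_mask rB) Pq = true := by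
  decide +kernel

theorem rB_sep : Induced.sepOK j2p_n p5_n rB = true := by decide +kernel

theorem Pq1 : Pq.map (·.1) = j2p_G_lev1.gens := by decide +kernel

theorem Pq2 : Pq.map (·.2) = t5c_T := by decide +kernel

theorem valid1 : Core.allL (Simple.validB j2p_n j2p_w j2p_mask j2p_idc) (Pq.map (·.1)) = true := by
  decide +kernel

theorem valid2 : Core.allL (Simple.validB p5_n p5_w p5_mask p5_idc) (Pq.map (·.2)) = true := by
  decide +kernel

theorem hm9 : j2p_mask = 2 ^ j2p_w - 1 := main_facts.1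

theorem hid9 : ∀ i < j2p_n, Core.app j2p_w j2p_mask j2p_idc i = i := main_facts.2.1

theorem hm5 : p5_mask = 2 ^ p5_w - 1 := by decide +kernel

theorem hid5 : ∀ i < p5_n, Core.app p5_w p5_mask p5_idc i = i := by decide +kernel

/-- The relation as a proposition. -/
abbrev RB : Fin 315 → Fin 5 → Prop := Induced.relOf e315 e5 rB

theorem exists_phi0 : ∃ φ : H1 →* Equiv.Perm (Fin 5), (∀ g, Induced.InvR RB g.1 (φ g)) ∧
    φ.range = Core.H p5_w p5_mask e5 t5c_T := by
  have h := Induced.exists_hom_of_pairs (w := j2p_w) (mask := j2p_mask) (e := e315) (w' := p5_w)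
    (mask' := p5_mask) (e' := e5) RB (fun i j hij => Induced.sep_of_sepOK rB_sep i j hij) Pq
    (fun p hp => Simple.exists_rep_of_valid hm9 hid9
      ((Core.allL_eq_true _ _).1 valid1 p.1 (List.mem_map.2 ⟨p, hp, rfl⟩)))
    (fun p hp => Simple.exists_rep_of_valid hm5 hid5
      ((Core.allL_eq_true _ _).1 valid2 p.2 (List.mem_map.2 ⟨p, hp, rfl⟩)))
    (fun p hp g σ hg hσ => Induced.invR_of_pairOK ((Core.allL_eq_true _ _).1 Pq_ok p hp) hg hσ)
  rw [Pq1, Pq2] at h
  exact h

theorem valid_t5 : ∀ c ∈ t5c_T, ∃ g, Core.Rep p5_w p5_mask e5 c g := fun c hc =>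
  Simple.exists_rep_of_valid hm5 hid5 ((Core.allL_eq_true _ _).1 valid2 c (Pq2 ▸ hc))

theorem card_H5 : Nat.card (Core.H p5_w p5_mask e5 t5c_T) = 60 :=
  (Core.main_of_checkAll (e := e5) valid_t5 t5c_ok).2.2.2.2.2.trans t5c_order

theorem H5_eq : Core.H p5_w p5_mask e5 t5c_T = alternatingGroup (Fin 5) := by
  apply Equiv.Perm.eq_alternatingGroup_of_index_eq_two
  have h := Subgroup.index_mul_card (Core.H p5_w p5_mask e5 t5c_T)
  rw [card_H5] at h
  have h2 : Nat.card (Equiv.Perm (Fin 5)) = 120 := by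
    rw [Nat.card_eq_fintype_card, Fintype.card_perm, Fintype.card_fin]
    decide
  rw [h2] at h
  omega

/-! ### The extraspecial group -/

/-- The extraspecial group. -/
def Qs : Subgroup (Equiv.Perm (Fin 315)) := Core.H j2p_w j2p_mask e315 qc_T

theorem valid_qc : Core.allL (Simple.validB j2p_n j2p_w j2p_mask j2p_idc) qc_T = true := by decide +kernel

theorem rep_qc : ∀ c ∈ qc_T, ∃ g, Core.Rep j2p_w j2p_mask e315 c g := fun c hc =>
  Simple.exists_rep_of_valid hm9 hid9 ((Core.allL_eq_true _ _).1 valid_qc c hc)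

theorem qc_facts : j2p_mask = 2 ^ j2p_w - 1 ∧ (∀ i < j2p_n, Core.app j2p_w j2p_mask j2p_idc i = i) ∧
    j2p_idc < 2 ^ (j2p_n * j2p_w) ∧ Core.Sem j2p_w j2p_mask e315 j2p_L j2p_maskL qc_levels ∧
    Core.H j2p_w j2p_mask e315 qc_T = Core.H j2p_w j2p_mask e315 (Core.topGens qc_levels) ∧
    Nat.card (Core.H j2p_w j2p_mask e315 qc_T) = Core.orderC qc_levels :=
  Core.main_of_checkAll (e := e315) rep_qc qc_ok

theorem card_Qs : Nat.card Qs = 32 := qc_facts.2.2.2.2.2.trans qc_order

/-- The permutation of the reflection number 281. -/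
def zh : Equiv.Perm (Fin 315) := rhoT (reflT 281)

theorem zC_eq : zC = j2p_G_T.head! := by decide +kernel

theorem rep_zC : Core.Rep j2p_w j2p_mask e315 zC zh := by
  have hc : (genIdx.zip j2p_G_T).head? = some (281, j2p_G_T.head!) := by decide +kernel
  have hm : ((281 : ℕ), j2p_G_T.head!) ∈ genIdx.zip j2p_G_T := List.mem_of_head? hc
  obtain ⟨k, hk, h⟩ := rep_of_mem_zip hm
  have hk' : k = 281 := Fin.ext hk
  subst hk'
  rw [zC_eq]
  exact h

theorem sift_zC : Core.sift j2p_n j2p_w j2p_mask j2p_L j2p_maskL j2p_idc qc_levels zC = true := by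
  decide +kernel

theorem zh_mem : zh ∈ Qs := by
  have h := Core.sift_sound_of_sem (e := e315) hm9 hid9 qc_levels qc_facts.2.2.2.1 zC zh rep_zC sift_zC
  rw [← qc_facts.2.2.2.2.1] at h
  exact h

theorem app_zC_ne : Core.app j2p_w j2p_mask zC 0 ≠ 0 := by decide +kernel

theorem zh_ne : zh ≠ 1 := by
  intro h
  apply app_zC_ne
  have h1 := rep_zC (0 : Fin 315)
  rw [h] at h1
  exact h1

theorem extra_ok : Extra.extraOK j2p_n j2p_w j2p_mask j2p_idc zC qc_T qL = true := by decide +kernel

theorem extraspecial_Qs : IsExtraspecial 2 Qs :=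
  Extra.isExtraspecial_of_check extra_ok hm9 hid9 rep_qc zh_mem rep_zC zh_ne card_Qs

theorem sift_qc : Core.allL (Core.sift j2p_n j2p_w j2p_mask j2p_L j2p_maskL j2p_idc [j2p_G_lev1, j2p_G_lev2])
    qc_T = true := by decide +kernel

theorem Qs_le_H1 : Qs ≤ H1 := by
  refine (Subgroup.closure_le _).2 ?_
  rintro g ⟨c, hc, hg⟩
  exact Core.sift_sound_of_sem (e := e315) hm9 hid9 [j2p_G_lev1, j2p_G_lev2] sem_H1 c g hg
    ((Core.allL_eq_true _ _).1 sift_qc c hc)

theorem qc_blocks : Core.allL (fun c => Induced.pairOK j2p_n p5_n j2p_w j2p_mask p5_w p5_mask rB (c, p5_idc))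
    qc_T = true := by decide +kernel

theorem invR_Qs {g : Equiv.Perm (Fin 315)} (hg : g ∈ Qs) : Induced.InvR RB g 1 := by
  refine Core.closure_induction_left_finite (P := fun g => Induced.InvR RB g 1) (Induced.InvR.one _) ?_ hg
  rintro s ⟨c, hc, hs⟩ h hh
  have h1 : Induced.InvR RB s 1 := Induced.invR_of_pairOK ((Core.allL_eq_true _ _).1 qc_blocks c hc) hs
    (Core.rep_one (e := e5) hid5)
  have h2 := h1.mul hh
  rwa [one_mul] at h2

/-! ### Transport -/

section Transport

variable {P P' : Type*} [Group P] [Group P'] [Finite P]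

theorem map_mem_center' (f : P ≃* P') {x : P} (hx : x ∈ Subgroup.center P) : f x ∈ Subgroup.center P' := by
  rw [Subgroup.mem_center_iff] at hx ⊢
  intro y
  have h := hx (f.symm y)
  have h2 := congrArg f h
  simpa using h2

theorem extraspecial_congr (f : P ≃* P') (h : IsExtraspecial 2 P) : IsExtraspecial 2 P' := by
  have : Finite P' := Finite.of_equiv P f.toEquiv
  have := Fact.mk Nat.prime_two
  have hL := extraLike_of_isExtraspecial h
  have hL' : ExtraLike 2 P' := by
    refine ⟨hL.isPGroup.of_equiv f, ?_, ?_, ?_⟩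
    · rw [← hL.card_center]
      exact Nat.card_congr (Subgroup.centerCongr f).symm.toEquiv
    · intro x y
      have h1 := map_mem_center' f (hL.comm_mem (f.symm x) (f.symm y))
      simpa [commutatorElement_def] using h1
    · intro x
      have h1 := map_mem_center' f (hL.pow_mem (f.symm x))
      simpa using h1
  apply hL'.isExtraspecial
  intro hc
  apply not_isMulCommutative_of_isExtraspecial h
  refine ⟨⟨fun a b => ?_⟩⟩
  apply f.injective
  rw [map_mul, map_mul]
  exact hc.is_comm.comm _ _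

end Transport

/-- The structure of the centralizer, through a homomorphism onto the alternating group. -/
def Pk (K : Type) [Group K] : Prop :=
  ∃ φ : K →* Equiv.Perm (Fin 5), φ.range = alternatingGroup (Fin 5) ∧ Nat.card φ.ker = 32 ∧
    IsExtraspecial 2 φ.ker

theorem Pk.of_equiv {K K' : Type} [Group K] [Group K'] [Finite K] (e : K ≃* K') (h : Pk K') : Pk K := by
  obtain ⟨φ, h1, h2, h3⟩ := h
  have hker : (φ.comp e.toMonoidHom).ker = φ.ker.comap e.toMonoidHom := by
    rw [MonoidHom.comap_ker]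
  have hmap : (φ.comp e.toMonoidHom).ker.map e.toMonoidHom = φ.ker := by
    rw [hker]
    exact Subgroup.map_comap_eq_self_of_surjective e.surjective _
  let f : (φ.comp e.toMonoidHom).ker ≃* φ.ker :=
    ((φ.comp e.toMonoidHom).ker.equivMapOfInjective e.toMonoidHom e.injective).trans
      (MulEquiv.subgroupCongr hmap)
  refine ⟨φ.comp e.toMonoidHom, ?_, ?_, ?_⟩
  · rw [MonoidHom.range_comp, MonoidHom.range_eq_top.2 e.surjective, ← MonoidHom.range_eq_map]
    exact h1
  · rw [Nat.card_congr f.toEquiv]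
    exact h2
  · have : Finite φ.ker := Finite.of_equiv _ f.toEquiv
    exact extraspecial_congr f.symm h3

theorem Pk.result {K : Type} [Group K] (h : Pk K) : ∃ (Q : Subgroup K) (_ : Q.Normal), Nat.card Q = 32 ∧
    IsExtraspecial 2 Q ∧ Nonempty (K ⧸ Q ≃* alternatingGroup (Fin 5)) := by
  obtain ⟨φ, h1, h2, h3⟩ := h
  exact ⟨φ.ker, inferInstance, h2, h3,
    ⟨(QuotientGroup.quotientKerEquivRange φ).trans (MulEquiv.subgroupCongr h1)⟩⟩

theorem Pk_H1 : Pk H1 := by
  obtain ⟨φ, h1, h2⟩ := exists_phi0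
  have hc : Nat.card φ.ker = 32 := by
    have h3 := Subgroup.card_mul_index φ.ker
    rw [Subgroup.index_ker, h2, card_H5, card_H1] at h3
    omega
  have hle : Qs ≤ φ.ker.map H1.subtype := by
    intro g hg
    refine ⟨⟨g, Qs_le_H1 hg⟩, ?_, rfl⟩
    rw [SetLike.mem_coe, MonoidHom.mem_ker]
    exact (h1 ⟨g, Qs_le_H1 hg⟩).unique (fun i j hij => Induced.sep_of_sepOK rB_sep i j hij) (invR_Qs hg)
  let f0 : φ.ker ≃* φ.ker.map H1.subtype := φ.ker.equivMapOfInjective H1.subtype Subtype.val_injective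
  have heq : Qs = φ.ker.map H1.subtype := by
    apply Subgroup.eq_of_le_of_card_ge hle
    rw [← Nat.card_congr f0.toEquiv, hc, card_Qs]
  let f : Qs ≃* φ.ker := (MulEquiv.subgroupCongr heq).trans f0.symm
  exact ⟨φ, h2.trans H5_eq, hc, extraspecial_congr f extraspecial_Qs⟩

/-! ### The centralizer of a permutation of the reflections is a point stabilizer -/

/-- The reverse of `conj_refl_of_rk`. -/
theorem rk_of_conj_refl {k j m : Fin 315} (h : refl k * refl j * (refl k)⁻¹ = refl m) :
    rkL (reflQ (rep k) (rep j)) = rkL (rep m) := by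
  have hk := rf_mem_linG (lamV k) (lamV_norm k)
  have hq := qrefl_evv (lamV j).2 (lamV k).2 (rep_allI (rep_mem j.2)) (rep_allI (rep_mem k.2))
  have e : (rf (lamV k) (lamV_norm k) (lamV j)).1 = evv (reflQ (rep k) (rep j)) := hq.1
  rw [refl, refl, conj_rf hk] at h
  have h1 := key_of_rf_eq _ _ h
  rw [e] at h1
  exact rk_of_key hq.2 (rep_allI (rep_mem m.2)) h1

/-- The check that the permutations of the reflections differ from that of the reflection 281. -/
def piOK : Bool :=
  Core.allL (fun m => Core.force (piW.getD m 0) fun x =>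
    Core.ifB (Nat.ble (Nat.succ x) 315) <|
    Core.ifB (Nat.ble (Nat.succ (Core.app 9 511 zC x)) 315) <|
      Nat.beq m 281 || !(decide (rkL (reflQ (rep m) (rep x)) = rkL (rep (Core.app 9 511 zC x)))))
    (List.range 315)

theorem piOK_eq : piOK = true := by decide +kernel

theorem pi_ne {m : Fin 315} (hm : m ≠ 281) : rhoT (reflT m) ≠ rhoT (reflT 281) := by
  intro h
  have h1 := (Core.allL_eq_true _ _).1 piOK_eq m (List.mem_range.2 m.2)
  rw [Core.force_eq, Core.ifB_eq_true, Core.ifB_eq_true, Bool.or_eq_true] at h1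
  obtain ⟨h2, h3, h4⟩ := h1
  have h2' : piW.getD m 0 < 315 := Nat.le_of_ble_eq_true h2
  have h3' : Core.app 9 511 zC (piW.getD m 0) < 315 := Nat.le_of_ble_eq_true h3
  rcases h4 with h4 | h4
  · exact hm (Fin.ext (Nat.eq_of_beq_eq_true h4))
  · set x : Fin 315 := ⟨_, h2'⟩ with hx
    set y : Fin 315 := ⟨_, h3'⟩ with hy
    have h5 : rhoT (reflT m) x = y := by
      rw [h]
      apply Fin.ext
      exact (rep_zC x).symm
    have h6 := rk_of_conj_refl ((rhoT_eq_iff (reflT m) x y).1 h5)
    have h7 : decide (rkL (reflQ (rep m) (rep (piW.getD m 0))) = rkL (rep (Core.app 9 511 zC (piW.getD m 0)))) = true :=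
      decide_eq_true h6
    rw [h7] at h4
    exact absurd h4 (by decide)

theorem pi_inj {j j' : Fin 315} (h : rhoT (reflT j) = rhoT (reflT j')) : j = j' := by
  obtain ⟨t, ht⟩ := refl_conj j 281
  by_contra hne
  have h1 : (rhoT t) j = 281 := by
    rw [rhoT_eq_iff]
    exact ht
  have h2 : (rhoT t) j' ≠ 281 := by
    intro h3
    apply hne
    exact (rhoT t).injective (h1.trans h3.symm)
  apply pi_ne h2
  have h3 : ∀ a : Fin 315, rhoT (reflT (rhoT t a)) = rhoT t * rhoT (reflT a) * (rhoT t)⁻¹ := by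
    intro a
    have h4 : reflT (rhoT t a) = t * reflT a * t⁻¹ := by
      apply Subtype.ext
      exact rhoT_apply t a
    rw [h4, map_mul, map_mul, map_inv]
  rw [h3, ← h1, h3, h]

theorem comm_iff_fix (g : Hg) : (⟨zh, rhoT_reflT_mem 281⟩ : Hg) * g = g * ⟨zh, rhoT_reflT_mem 281⟩ ↔ g.1 281 = 281 := by
  obtain ⟨t, rfl⟩ := rhoH_surjective g
  have h4 : reflT (rhoT t 281) = t * reflT 281 * t⁻¹ := by
    apply Subtype.ext
    exact rhoT_apply t 281
  have h5 : rhoT (reflT (rhoT t 281)) = rhoT t * zh * (rhoT t)⁻¹ := by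
    rw [h4, map_mul, map_mul, map_inv]
    rfl
  constructor
  · intro h
    have h1 : zh * rhoT t = rhoT t * zh := congrArg Subtype.val h
    have h2 : rhoT t * zh * (rhoT t)⁻¹ = zh := by rw [← h1, mul_inv_cancel_right]
    exact pi_inj (h5.trans h2)
  · intro h
    have h1 : rhoT t 281 = 281 := h
    rw [h1] at h5
    have h2 : zh = rhoT t * zh * (rhoT t)⁻¹ := h5
    apply Subtype.ext
    show zh * rhoT t = rhoT t * zh
    nth_rw 1 [h2]
    rw [inv_mul_cancel_right]

theorem map_centralizer : (Subgroup.centralizer {(⟨zh, rhoT_reflT_mem 281⟩ : Hg)}).map Hg.subtype = H1 := by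
  rw [← stab_Hg]
  ext x
  constructor
  · rintro ⟨g, hg, rfl⟩
    have h1 := Subgroup.mem_centralizer_iff.1 hg _ (Set.mem_singleton _)
    exact ⟨g.2, MulAction.mem_stabilizer_iff.2 ((comm_iff_fix g).1 h1)⟩
  · rintro ⟨h1, h2⟩
    refine ⟨⟨x, h1⟩, ?_, rfl⟩
    rw [SetLike.mem_coe, Subgroup.mem_centralizer_iff]
    rintro _ rfl
    exact (comm_iff_fix ⟨x, h1⟩).2 (MulAction.mem_stabilizer_iff.1 h2)

/-- The centralizer and the point stabilizer. -/
def centEquiv : Subgroup.centralizer {(⟨zh, rhoT_reflT_mem 281⟩ : Hg)} ≃* H1 :=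
  ((Subgroup.centralizer {(⟨zh, rhoT_reflT_mem 281⟩ : Hg)}).equivMapOfInjective Hg.subtype
    Subtype.val_injective).trans (MulEquiv.subgroupCongr map_centralizer)

section Cent

variable {A B : Type*} [Group A] [Group B]

theorem map_centralizer_eq (e : A ≃* B) (a : A) :
    (Subgroup.centralizer {a}).map e.toMonoidHom = Subgroup.centralizer {e a} := by
  ext x
  constructor
  · rintro ⟨g, hg, rfl⟩
    rw [Subgroup.mem_centralizer_iff]
    rintro _ rfl
    have h1 := Subgroup.mem_centralizer_iff.1 hg _ (Set.mem_singleton a)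
    show e a * e g = e g * e a
    rw [← map_mul, ← map_mul, h1]
  · intro hx
    refine ⟨e.symm x, ?_, by simp⟩
    rw [SetLike.mem_coe, Subgroup.mem_centralizer_iff]
    intro h hh
    have hh' : h = a := hh
    rw [hh']
    have h1 := Subgroup.mem_centralizer_iff.1 hx _ (Set.mem_singleton (e a))
    apply e.injective
    rw [map_mul, map_mul, e.apply_symm_apply]
    exact h1

/-- Centralizers correspond under an isomorphism. -/
def centCongr (e : A ≃* B) (a : A) : Subgroup.centralizer {a} ≃* Subgroup.centralizer {e a} :=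
  ((Subgroup.centralizer {a}).equivMapOfInjective e.toMonoidHom e.injective).trans
    (MulEquiv.subgroupCongr (map_centralizer_eq e a))

end Cent

instance : Finite J2 := Finite.of_equiv _ j2Equiv.symm.toEquiv

/-- The structure of the centralizer of a reflection in the Hall-Janko group. -/
theorem centralizer_structure {f : Equiv.Perm Lam} (hf : IsIcoReflection f) (hfm : f ∈ twoJ2) :
    ∃ (Q : Subgroup (Subgroup.centralizer {(QuotientGroup.mk ⟨f, hfm⟩ : J2)})) (_ : Q.Normal),
      Nat.card Q = 32 ∧ IsExtraspecial 2 Q ∧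
      Nonempty ((Subgroup.centralizer {(QuotientGroup.mk ⟨f, hfm⟩ : J2)}) ⧸ Q ≃* alternatingGroup (Fin 5)) := by
  obtain ⟨j, rfl⟩ := isRefl_iff.1 hf
  obtain ⟨t, ht⟩ := refl_conj j 281
  let e : J2 ≃* Hg := (MulAut.conj (QuotientGroup.mk t : J2)).trans j2Equiv
  have he : e (QuotientGroup.mk ⟨refl j, hfm⟩) = ⟨zh, rhoT_reflT_mem 281⟩ := by
    have h1 : (MulAut.conj (QuotientGroup.mk t : J2)) (QuotientGroup.mk ⟨refl j, hfm⟩) =
        QuotientGroup.mk (reflT 281) := by
      rw [MulAut.conj_apply]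
      have h2 : t * ⟨refl j, hfm⟩ * t⁻¹ = reflT 281 := Subtype.ext ht
      rw [← h2]
      rfl
    show j2Equiv ((MulAut.conj (QuotientGroup.mk t : J2)) (QuotientGroup.mk ⟨refl j, hfm⟩)) = _
    rw [h1]
    rfl
  have h1 := centCongr e (QuotientGroup.mk ⟨refl j, hfm⟩)
  rw [he] at h1
  exact (Pk.of_equiv (h1.trans centEquiv) Pk_H1).result

end Q8

end Cfsg.Agent.Lib.J2Ico

end
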