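import Cfsg.Agent.Lib.J2Ico.EnumB

/-!
# The kernel computations of the count of minimal vectors
-/

namespace Cfsg.Agent.Lib.J2Ico.Q8

open Cfsg.Agent.Lib.PermComp.Core (allL)

theorem c1 : goA listA 0 = 26641 + 2 ^ 15 * histT := by decide +kernel

theorem c2 : listA.length = 26641 := by decide +kernel

theorem c3 : allL (fun a => allL (fun b => cellsOK (Nat.add (Nat.mul a 96) b)) (List.range 96)) (List.range 120) = true := by
  decide +kernel

theorem c4 : histT < 2 ^ (15 * 11520) := by decide +kernel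

theorem c5 : totalK = 37800 := by decide +kernel

theorem ncard_cond_le (S : Set (Q8 × Q8 × Q8)) (hS : ∀ v ∈ S, Cond v.1 v.2.1 v.2.2) : S.Finite ∧ S.ncard ≤ 37800 :=
  ncard_le c1 c2 c3 c4 c5 S hS

end Cfsg.Agent.Lib.J2Ico.Q8
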