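import Cfsg.Agent.Lib.J2Ico.Lattice
import Cfsg.Agent.Lib.J2Ico.EnumC

/-!
# Coordinates of lattice vectors
-/

set_option autoImplicit false
set_option linter.unusedSectionVars false

noncomputable section

namespace Cfsg.Agent.Lib.J2Ico

open Cfsg.Spor Quaternion

namespace Q8

/-- Triples of coordinates. -/
abbrev V3 : Type := Q8 × Q8 × Q8

/-- The vector with the given coordinates. -/
def evv (v : V3) : Fin 3 → ℍ[ℝ] := ![E v.1, E v.2.1, E v.2.2]

@[simp] theorem evv_zero (v : V3) : evv v 0 = E v.1 := rfl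
@[simp] theorem evv_one (v : V3) : evv v 1 = E v.2.1 := rfl
@[simp] theorem evv_two (v : V3) : evv v 2 = E v.2.2 := rfl

/-- All coordinates are icosians. -/
def allI (v : V3) : Prop := inI v.1 ∧ inI v.2.1 ∧ inI v.2.2

instance : DecidablePred allI := fun v => by unfold allI; infer_instance

theorem exists_evv {r : Fin 3 → ℍ[ℝ]} (hr : r ∈ icoLeech) : ∃ v, allI v ∧ r = evv v := by
  obtain ⟨x, hx, e0⟩ := mem_icosians.1 (hr.1 0)
  obtain ⟨y, hy, e1⟩ := mem_icosians.1 (hr.1 1)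
  obtain ⟨z, hz, e2⟩ := mem_icosians.1 (hr.1 2)
  refine ⟨(x, y, z), ⟨hx, hy, hz⟩, ?_⟩
  funext t
  fin_cases t
  · exact e0
  · exact e1
  · exact e2

theorem evv_injective : Function.Injective evv := by
  intro v w h
  have h0 := congrFun h 0
  have h1 := congrFun h 1
  have h2 := congrFun h 2
  simp only [evv_zero, evv_one, evv_two] at h0 h1 h2
  exact Prod.ext (E_inj h0) (Prod.ext (E_inj h1) (E_inj h2))

theorem mul_conj_self (x : Q8) : mul x (conj x) = ⟨pN x, rN x, 0, 0, 0, 0, 0, 0⟩ := by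
  apply ext' <;> simp only [mul, conj, mR, mT, pN, rN] <;> ring

theorem four_eq : (4 : ℍ[ℝ]) = ⟨4, 0, 0, 0⟩ := by
  rw [show (4 : ℍ[ℝ]) = ((4 : ℝ) : ℍ[ℝ]) by norm_cast]
  rfl

theorem qip_self_evv (v : V3) : qip (evv v) (evv v) =
    ev 4 ⟨pN v.1 + pN v.2.1 + pN v.2.2, rN v.1 + rN v.2.1 + rN v.2.2, 0, 0, 0, 0, 0, 0⟩ := by
  rw [qip_apply]
  simp only [evv_zero, evv_one, evv_two, E_conj, E_mul_eq, mul_conj_self]
  rw [ev_add, ev_add]
  rfl

theorem qip_self_iff (v : V3) : qip (evv v) (evv v) = 4 ↔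
    pN v.1 + pN v.2.1 + pN v.2.2 = 16 ∧ rN v.1 + rN v.2.1 + rN v.2.2 = 0 := by
  rw [qip_self_evv]
  constructor
  · intro h
    have h0 := congrArg QuaternionAlgebra.re h
    rw [four_eq] at h0
    simp only [ev] at h0
    have h1 : ((pN v.1 + pN v.2.1 + pN v.2.2 : ℤ) : ℝ) + ((rN v.1 + rN v.2.1 + rN v.2.2 : ℤ) : ℝ) * tau =
        ((16 : ℤ) : ℝ) + ((0 : ℤ) : ℝ) * tau := by
      have : (4 : ℝ) ≠ 0 := by norm_num
      field_simp at h0
      push_cast at h0 ⊢
      linarith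
    exact int_eq_of_eq h1
  · rintro ⟨h1, h2⟩
    rw [h1, h2, four_eq]
    apply Quaternion.ext <;> simp [ev] <;> norm_num

/-! ### The conditions on the coordinates -/

theorem bitI_congr {u v : ℤ} (h : (u - v) % 4 = 0) : bitI u = bitI v := by
  unfold bitI
  have : u % 4 = v % 4 := by omega
  rw [this]

theorem bit_third {p q r : ℤ} (hp : p % 2 = 0) (hq : q % 2 = 0) (hs : (p + q + r) % 4 = 0) :
    bitI r = (bitI p + bitI q) % 2 := by
  unfold bitI
  omega

set_option maxHeartbeats 4000000 in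
theorem res1_congr {x y : Q8} (hx : inI x) (hy : inI y) (h : E x - E y ∈ leftIdeal icoH) :
    res1 x = res1 y := by
  obtain ⟨a', ha', e⟩ := h
  obtain ⟨a, ha, rfl⟩ := mem_icosians.1 ha'
  rw [E_sub, icoH_eq, E_mulI ha (by decide : inI Hq)] at e
  have e1 := E_inj e
  have e2 := (mul_of_inI ha (by decide : inI Hq)).2
  rw [← show mulI a Hq = half (mul a Hq) from rfl, ← e1] at e2
  have a0 := congrArg Q8.a0 e2
  have a1 := congrArg Q8.b0 e2
  have a2 := congrArg Q8.a1 e2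
  have a3 := congrArg Q8.b1 e2
  have a4 := congrArg Q8.a2 e2
  have a5 := congrArg Q8.b2 e2
  have a6 := congrArg Q8.a3 e2
  have a7 := congrArg Q8.b3 e2
  simp only [mul, Hq, mR, mT, smul, sub] at a0 a1 a2 a3 a4 a5 a6 a7
  obtain ⟨p1, p2, p3, p4⟩ := ha
  unfold res1
  rw [bitI_congr (u := lam1 x) (v := lam1 y) (by simp only [lam1]; omega),
    bitI_congr (u := lam2 x) (v := lam2 y) (by simp only [lam2]; omega),
    bitI_congr (u := lam3 x) (v := lam3 y) (by simp only [lam3]; omega),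
    bitI_congr (u := lam4 x) (v := lam4 y) (by simp only [lam4]; omega)]

theorem mu1_even {x : Q8} (hx : inI x) : mu1 x % 2 = 0 := by
  obtain ⟨p1, p2, p3, p4⟩ := hx
  simp only [mu1]; omega

theorem mu2_even {x : Q8} (hx : inI x) : mu2 x % 2 = 0 := by
  obtain ⟨p1, p2, p3, p4⟩ := hx
  simp only [mu2]; omega

theorem mu3_even {x : Q8} (hx : inI x) : mu3 x % 2 = 0 := by
  obtain ⟨p1, p2, p3, p4⟩ := hx
  simp only [mu3]; omega

theorem mu4_even {x : Q8} (hx : inI x) : mu4 x % 2 = 0 := by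
  obtain ⟨p1, p2, p3, p4⟩ := hx
  simp only [mu4]; omega

set_option maxHeartbeats 4000000 in
theorem mu_sums {x y z : Q8} (h : E x + E y + E z ∈ leftIdeal (star icoH)) :
    (mu1 x + mu1 y + mu1 z) % 4 = 0 ∧ (mu2 x + mu2 y + mu2 z) % 4 = 0 ∧
    (mu3 x + mu3 y + mu3 z) % 4 = 0 ∧ (mu4 x + mu4 y + mu4 z) % 4 = 0 := by
  obtain ⟨a', ha', e⟩ := h
  obtain ⟨a, ha, rfl⟩ := mem_icosians.1 ha'
  have hb : inI (conj Hq) := by decide
  rw [E_add, E_add, icoH_eq, E_conj, E_mulI ha hb] at e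
  have e1 := E_inj e
  have e2 := (mul_of_inI ha hb).2
  rw [← show mulI a (conj Hq) = half (mul a (conj Hq)) from rfl, ← e1] at e2
  have a0 := congrArg Q8.a0 e2
  have a1 := congrArg Q8.b0 e2
  have a2 := congrArg Q8.a1 e2
  have a3 := congrArg Q8.b1 e2
  have a4 := congrArg Q8.a2 e2
  have a5 := congrArg Q8.b2 e2
  have a6 := congrArg Q8.a3 e2
  have a7 := congrArg Q8.b3 e2
  simp only [mul, Hq, conj, mR, mT, smul, add] at a0 a1 a2 a3 a4 a5 a6 a7
  obtain ⟨p1, p2, p3, p4⟩ := ha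
  simp only [mu1, mu2, mu3, mu4]
  omega

/-- The coordinates of a vector of norm `4` of the lattice satisfy the conditions of the count. -/
theorem cond_of_mem {v : V3} (hv : evv v ∈ icoLeech) (hn : qip (evv v) (evv v) = 4) (hI : allI v) :
    Cond v.1 v.2.1 v.2.2 := by
  obtain ⟨hx, hy, hz⟩ := hI
  obtain ⟨-, h1, h2, h3⟩ := hv
  obtain ⟨h4, h5⟩ := (qip_self_iff v).1 hn
  have r1 := res1_congr hx hy h1
  have r2 := res1_congr hy hz h2
  obtain ⟨m1, m2, m3, m4⟩ := mu_sums (x := v.1) (y := v.2.1) (z := v.2.2) h3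
  exact ⟨hx, hy, hz, h4, h5, r1, r1.trans r2, bit_third (mu1_even hx) (mu1_even hy) m1,
    bit_third (mu2_even hx) (mu2_even hy) m2, bit_third (mu3_even hx) (mu3_even hy) m3,
    bit_third (mu4_even hx) (mu4_even hy) m4⟩

/-- The set of minimal vectors. -/
def minSet : Set (Fin 3 → ℍ[ℝ]) := {r | r ∈ icoLeech ∧ qip r r = 4}

/-- The upper bound for the number of minimal vectors. -/
theorem minSet_bound : minSet.Finite ∧ minSet.ncard ≤ 37800 := by
  have h : minSet ⊆ evv '' {v | evv v ∈ icoLeech ∧ qip (evv v) (evv v) = 4 ∧ allI v} := by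
    rintro r ⟨h1, h2⟩
    obtain ⟨v, hv, rfl⟩ := exists_evv h1
    exact ⟨v, ⟨h1, h2, hv⟩, rfl⟩
  obtain ⟨hfin, hS⟩ := ncard_cond_le {v | evv v ∈ icoLeech ∧ qip (evv v) (evv v) = 4 ∧ allI v}
    fun v hv => cond_of_mem hv.1 hv.2.1 hv.2.2
  refine ⟨(hfin.image _).subset h, ?_⟩
  calc minSet.ncard ≤ (evv '' {v | evv v ∈ icoLeech ∧ qip (evv v) (evv v) = 4 ∧ allI v}).ncard :=
        Set.ncard_le_ncard h (hfin.image _)
    _ = _ := Set.ncard_image_of_injective _ evv_injective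
    _ ≤ 37800 := hS

/-! ### Products and reflections in coordinates -/

/-- The Hermitian product in coordinates. -/
def qipQ (x r : V3) : Q8 :=
  add (add (mulI x.1 (conj r.1)) (mulI x.2.1 (conj r.2.1))) (mulI x.2.2 (conj r.2.2))

theorem qip_evv {x r : V3} (hx : allI x) (hr : allI r) : qip (evv x) (evv r) = E (qipQ x r) := by
  rw [qip_apply]
  simp only [evv_zero, evv_one, evv_two, E_conj]
  rw [E_mulI hx.1 (inI_conj hr.1), E_mulI hx.2.1 (inI_conj hr.2.1), E_mulI hx.2.2 (inI_conj hr.2.2), E_add, E_add]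
  rfl

/-- The reflection in coordinates. -/
def reflQ (r x : V3) : V3 :=
  (sub x.1 (mulI (half (qipQ x r)) r.1), sub x.2.1 (mulI (half (qipQ x r)) r.2.1),
    sub x.2.2 (mulI (half (qipQ x r)) r.2.2))

theorem half_qipQ {x r : V3} (hxL : evv x ∈ icoLeech) (hrL : evv r ∈ icoLeech) (hx : allI x) (hr : allI r) :
    inI (half (qipQ x r)) ∧ (1 / 2 : ℝ) • qip (evv x) (evv r) = E (half (qipQ x r)) := by
  obtain ⟨c, hc, e⟩ := qip_mem hxL hrL
  obtain ⟨c', hc', rfl⟩ := mem_icosians.1 hc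
  have e1 : (2 : ℍ[ℝ]) * E c' = E (smul 2 c') := by
    rw [E_smul, two_zsmul, two_mul]
  rw [qip_evv hx hr, e1] at e
  have e2 := E_inj e
  have e3 : half (qipQ x r) = c' := by
    rw [e2]
    apply ext' <;> simp only [half, smul] <;> omega
  rw [e3]
  refine ⟨hc', ?_⟩
  rw [qip_evv hx hr, e, ← e1, half_smul_two_mul]

theorem qrefl_evv {x r : V3} (hxL : evv x ∈ icoLeech) (hrL : evv r ∈ icoLeech) (hx : allI x) (hr : allI r) :
    qrefl (evv r) (evv x) = evv (reflQ r x) ∧ allI (reflQ r x) := by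
  obtain ⟨h1, h2⟩ := half_qipQ hxL hrL hx hr
  refine ⟨?_, inI_sub hx.1 (inI_mulI h1 hr.1), inI_sub hx.2.1 (inI_mulI h1 hr.2.1),
    inI_sub hx.2.2 (inI_mulI h1 hr.2.2)⟩
  funext t
  rw [qrefl_apply, h2]
  fin_cases t
  · show E x.1 - E _ * E r.1 = E (sub x.1 _)
    rw [E_mulI h1 hr.1, E_sub]
  · show E x.2.1 - E _ * E r.2.1 = E (sub x.2.1 _)
    rw [E_mulI h1 hr.2.1, E_sub]
  · show E x.2.2 - E _ * E r.2.2 = E (sub x.2.2 _)
    rw [E_mulI h1 hr.2.2, E_sub]

/-- The products of coordinates which determine the reflection. -/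
def rkL (r : V3) : List Q8 :=
  [mulI (conj r.1) r.1, mulI (conj r.1) r.2.1, mulI (conj r.1) r.2.2,
    mulI (conj r.2.1) r.2.1, mulI (conj r.2.1) r.2.2, mulI (conj r.2.2) r.2.2]

theorem key_of_rk {r s : V3} (hr : allI r) (hs : allI s) (h : rkL r = rkL s) :
    ∀ u t, star (evv r u) * evv r t = star (evv s u) * evv s t := by
  simp only [rkL, List.cons.injEq, and_true] at h
  obtain ⟨h0, h1, h2, h3, h4, h5⟩ := h
  obtain ⟨r0, r1, r2⟩ := hr
  obtain ⟨s0, s1, s2⟩ := hs
  have e00 : star (E r.1) * E r.1 = star (E s.1) * E s.1 := by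
    rw [E_conj, E_conj, E_mulI (inI_conj r0) r0, E_mulI (inI_conj s0) s0, h0]
  have e01 : star (E r.1) * E r.2.1 = star (E s.1) * E s.2.1 := by
    rw [E_conj, E_conj, E_mulI (inI_conj r0) r1, E_mulI (inI_conj s0) s1, h1]
  have e02 : star (E r.1) * E r.2.2 = star (E s.1) * E s.2.2 := by
    rw [E_conj, E_conj, E_mulI (inI_conj r0) r2, E_mulI (inI_conj s0) s2, h2]
  have e11 : star (E r.2.1) * E r.2.1 = star (E s.2.1) * E s.2.1 := by
    rw [E_conj, E_conj, E_mulI (inI_conj r1) r1, E_mulI (inI_conj s1) s1, h3]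
  have e12 : star (E r.2.1) * E r.2.2 = star (E s.2.1) * E s.2.2 := by
    rw [E_conj, E_conj, E_mulI (inI_conj r1) r2, E_mulI (inI_conj s1) s2, h4]
  have e22 : star (E r.2.2) * E r.2.2 = star (E s.2.2) * E s.2.2 := by
    rw [E_conj, E_conj, E_mulI (inI_conj r2) r2, E_mulI (inI_conj s2) s2, h5]
  have flip : ∀ {a b c d : ℍ[ℝ]}, star a * b = star c * d → star b * a = star d * c := by
    intro a b c d h
    have := congrArg star h
    simpa [star_mul] using this
  intro u t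
  fin_cases u <;> fin_cases t
  · exact e00
  · exact e01
  · exact e02
  · exact flip e01
  · exact e11
  · exact e12
  · exact flip e02
  · exact flip e12
  · exact e22

theorem rk_of_key {r s : V3} (hr : allI r) (hs : allI s)
    (h : ∀ u t, star (evv r u) * evv r t = star (evv s u) * evv s t) : rkL r = rkL s := by
  obtain ⟨r0, r1, r2⟩ := hr
  obtain ⟨s0, s1, s2⟩ := hs
  have e00 := h 0 0
  have e01 := h 0 1
  have e02 := h 0 2
  have e11 := h 1 1
  have e12 := h 1 2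
  have e22 := h 2 2
  simp only [evv_zero, evv_one, evv_two, E_conj] at e00 e01 e02 e11 e12 e22
  rw [E_mulI (inI_conj r0) r0, E_mulI (inI_conj s0) s0] at e00
  rw [E_mulI (inI_conj r0) r1, E_mulI (inI_conj s0) s1] at e01
  rw [E_mulI (inI_conj r0) r2, E_mulI (inI_conj s0) s2] at e02
  rw [E_mulI (inI_conj r1) r1, E_mulI (inI_conj s1) s1] at e11
  rw [E_mulI (inI_conj r1) r2, E_mulI (inI_conj s1) s2] at e12
  rw [E_mulI (inI_conj r2) r2, E_mulI (inI_conj s2) s2] at e22
  simp only [rkL, E_inj e00, E_inj e01, E_inj e02, E_inj e11, E_inj e12, E_inj e22]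

/-! ### Membership in the lattice, checked in coordinates -/

/-- The conjugate of `h` in coordinates. -/
def Hb : Q8 := conj Hq

/-- Check of left divisibility by `h`. -/
def divH (w : Q8) : Prop := inI (half (mulI w Hb)) ∧ mulI (half (mulI w Hb)) Hq = w

/-- Check of left divisibility by `h̄`. -/
def divHb (w : Q8) : Prop := inI (half (mulI w Hq)) ∧ mulI (half (mulI w Hq)) Hb = w

instance : DecidablePred divH := fun w => by unfold divH; infer_instance
instance : DecidablePred divHb := fun w => by unfold divHb; infer_instance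

theorem leftIdeal_of_divH {w : Q8} (h : divH w) : E w ∈ leftIdeal icoH := by
  refine ⟨_, E_mem h.1, ?_⟩
  rw [icoH_eq, E_mulI h.1 (by decide : inI Hq), h.2]

theorem leftIdeal_of_divHb {w : Q8} (h : divHb w) : E w ∈ leftIdeal (star icoH) := by
  refine ⟨_, E_mem h.1, ?_⟩
  rw [icoH_eq, E_conj, show conj Hq = Hb from rfl, E_mulI h.1 (by decide : inI Hb), h.2]

/-- Check of membership in the lattice. -/
def inLam (v : V3) : Prop :=
  allI v ∧ divH (sub v.1 v.2.1) ∧ divH (sub v.2.1 v.2.2) ∧ divHb (add (add v.1 v.2.1) v.2.2)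

instance : DecidablePred inLam := fun v => by unfold inLam; infer_instance

theorem evv_mem_of_inLam {v : V3} (h : inLam v) : evv v ∈ icoLeech := by
  obtain ⟨h0, h1, h2, h3⟩ := h
  refine ⟨?_, ?_, ?_, ?_⟩
  · intro t
    fin_cases t
    · exact E_mem h0.1
    · exact E_mem h0.2.1
    · exact E_mem h0.2.2
  · simp only [evv_zero, evv_one, E_sub]
    exact leftIdeal_of_divH h1
  · simp only [evv_one, evv_two, E_sub]
    exact leftIdeal_of_divH h2
  · simp only [evv_zero, evv_one, evv_two, E_add]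
    exact leftIdeal_of_divHb h3

end Q8

end Cfsg.Agent.Lib.J2Ico

end
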