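import Cfsg.Agent.Lib.J2Ico.Ring
import Cfsg.Agent.Lib.PermComp.Core

/-!
# Enumeration of the short icosians, and the histogram of their classes

All the work is done on natural numbers (coordinates shifted by `4`).
-/

set_option autoImplicit false
set_option linter.unusedSectionVars false

namespace Cfsg.Agent.Lib.J2Ico

open Cfsg.Agent.Lib.PermComp.Core (force force_eq app allL allL_eq_true memN memN_eq_true ifB ifB_eq_true)

namespace Q8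

/-- Rational part of four times the norm. -/
def pN (x : Q8) : ℤ :=
  x.a0 * x.a0 + x.b0 * x.b0 + x.a1 * x.a1 + x.b1 * x.b1 + x.a2 * x.a2 + x.b2 * x.b2 + x.a3 * x.a3 + x.b3 * x.b3

/-- `τ`-part of four times the norm. -/
def rN (x : Q8) : ℤ :=
  2 * x.a0 * x.b0 + x.b0 * x.b0 + 2 * x.a1 * x.b1 + x.b1 * x.b1 + 2 * x.a2 * x.b2 + x.b2 * x.b2
    + 2 * x.a3 * x.b3 + x.b3 * x.b3

/-- Functionals for the classes modulo `I h`. -/
def lam1 (x : Q8) : ℤ := 2 * x.b2 + 2 * x.b3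
def lam2 (x : Q8) : ℤ := 2 * x.a2 + 2 * x.a3
def lam3 (x : Q8) : ℤ := x.b0 + x.b1 + x.b2 + 2 * x.a3 - x.b3
def lam4 (x : Q8) : ℤ := x.a0 + x.a1 + x.a2 + x.a3 + 2 * x.b3

/-- Functionals for the classes modulo `I h̄`. -/
def mu1 (x : Q8) : ℤ := x.b1 + x.a2 + 2 * x.b2 - x.a3 + x.b3
def mu2 (x : Q8) : ℤ := x.a1 + x.a2 + x.b2 + 2 * x.a3 - x.b3
def mu3 (x : Q8) : ℤ := x.b0 - x.a2 + x.b2 - x.a3 + 2 * x.b3
def mu4 (x : Q8) : ℤ := x.a0 + 2 * x.a2 - x.b2 - x.a3 - x.b3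

/-- The binary digit of an even number modulo `4`. -/
def bitI (v : ℤ) : ℕ := ((v % 4) / 2).toNat

/-- The class modulo `I h`. -/
def res1 (x : Q8) : ℕ :=
  bitI (lam1 x) + 2 * bitI (lam2 x) + 4 * bitI (lam3 x) + 8 * bitI (lam4 x)

/-! ### Shifted coordinates -/

/-- Shifted coordinates. -/
structure Q8N where
  a0 : ℕ
  b0 : ℕ
  a1 : ℕ
  b1 : ℕ
  a2 : ℕ
  b2 : ℕ
  a3 : ℕ
  b3 : ℕ

/-- The element with the given shifted coordinates. -/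
def toQ (X : Q8N) : Q8 :=
  ⟨(X.a0 : ℤ) - 4, (X.b0 : ℤ) - 4, (X.a1 : ℤ) - 4, (X.b1 : ℤ) - 4,
    (X.a2 : ℤ) - 4, (X.b2 : ℤ) - 4, (X.a3 : ℤ) - 4, (X.b3 : ℤ) - 4⟩

/-- Shifted coordinates of an element. -/
def ofQ (x : Q8) : Q8N :=
  ⟨(x.a0 + 4).toNat, (x.b0 + 4).toNat, (x.a1 + 4).toNat, (x.b1 + 4).toNat,
    (x.a2 + 4).toNat, (x.b2 + 4).toNat, (x.a3 + 4).toNat, (x.b3 + 4).toNat⟩

/-- Sum of the squares of the shifted coordinates plus `128`. -/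
def pos1 (X : Q8N) : ℕ :=
  Nat.add (Nat.mul X.a0 X.a0) (Nat.add (Nat.mul X.b0 X.b0) (Nat.add (Nat.mul X.a1 X.a1) (Nat.add (Nat.mul X.b1 X.b1)
    (Nat.add (Nat.mul X.a2 X.a2) (Nat.add (Nat.mul X.b2 X.b2) (Nat.add (Nat.mul X.a3 X.a3) (Nat.add (Nat.mul X.b3 X.b3) 128)))))))

/-- Eight times the sum of the shifted coordinates. -/
def neg1 (X : Q8N) : ℕ :=
  Nat.mul 8 (Nat.add X.a0 (Nat.add X.b0 (Nat.add X.a1 (Nat.add X.b1 (Nat.add X.a2 (Nat.add X.b2 (Nat.add X.a3 X.b3)))))))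

/-- Positive part of `rN + 64`. -/
def pos2 (X : Q8N) : ℕ :=
  Nat.add (Nat.mul X.b0 (Nat.add (Nat.mul 2 X.a0) X.b0)) (Nat.add (Nat.mul X.b1 (Nat.add (Nat.mul 2 X.a1) X.b1))
    (Nat.add (Nat.mul X.b2 (Nat.add (Nat.mul 2 X.a2) X.b2)) (Nat.add (Nat.mul X.b3 (Nat.add (Nat.mul 2 X.a3) X.b3)) 256)))

/-- Negative part of `rN + 64`. -/
def neg2 (X : Q8N) : ℕ :=
  Nat.add (Nat.mul 8 (Nat.add X.a0 (Nat.add X.a1 (Nat.add X.a2 X.a3))))
    (Nat.mul 16 (Nat.add X.b0 (Nat.add X.b1 (Nat.add X.b2 X.b3))))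

/-- The digit of a natural number. -/
def bitN (v : ℕ) : ℕ := Nat.div (Nat.mod v 4) 2

def l1N (X : Q8N) : ℕ := Nat.mul 2 (Nat.add X.b2 X.b3)
def l2N (X : Q8N) : ℕ := Nat.mul 2 (Nat.add X.a2 X.a3)
def l3N (X : Q8N) : ℕ := Nat.add X.b0 (Nat.add X.b1 (Nat.add X.b2 (Nat.add (Nat.mul 2 X.a3) (Nat.mul 3 X.b3))))
def l4N (X : Q8N) : ℕ := Nat.add X.a0 (Nat.add X.a1 (Nat.add X.a2 (Nat.add X.a3 (Nat.mul 2 X.b3))))
def m1N (X : Q8N) : ℕ := Nat.add X.b1 (Nat.add X.a2 (Nat.add (Nat.mul 2 X.b2) (Nat.add (Nat.mul 3 X.a3) X.b3)))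
def m2N (X : Q8N) : ℕ := Nat.add X.a1 (Nat.add X.a2 (Nat.add X.b2 (Nat.add (Nat.mul 2 X.a3) (Nat.mul 3 X.b3))))
def m3N (X : Q8N) : ℕ := Nat.add X.b0 (Nat.add (Nat.mul 3 X.a2) (Nat.add X.b2 (Nat.add (Nat.mul 3 X.a3) (Nat.mul 2 X.b3))))
def m4N (X : Q8N) : ℕ := Nat.add X.a0 (Nat.add (Nat.mul 2 X.a2) (Nat.add (Nat.mul 3 X.b2) (Nat.add (Nat.mul 3 X.a3) (Nat.mul 3 X.b3))))

/-- The cell of a shifted element. -/
def keyF (X : Q8N) : ℕ :=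
  Nat.add (Nat.mul (Nat.add (Nat.mul (Nat.div (Nat.sub (pos1 X) (neg1 X)) 4) 9)
      (Nat.div (Nat.sub (Nat.sub (pos2 X) (neg2 X)) 56) 4)) 256)
    (Nat.add (Nat.mul (Nat.add (bitN (l1N X)) (Nat.add (Nat.mul 2 (bitN (l2N X)))
        (Nat.add (Nat.mul 4 (bitN (l3N X))) (Nat.mul 8 (bitN (l4N X)))))) 16)
      (Nat.add (bitN (m1N X)) (Nat.add (Nat.mul 2 (bitN (m2N X)))
        (Nat.add (Nat.mul 4 (bitN (m3N X))) (Nat.mul 8 (bitN (m4N X)))))))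

/-- Decoding. -/
def dP (k : ℕ) : ℕ := Nat.mul 4 (Nat.div (Nat.div k 256) 9)
def dR (k : ℕ) : ℕ := Nat.add (Nat.mul 4 (Nat.mod (Nat.div k 256) 9)) 56
def dr (k : ℕ) : ℕ := Nat.mod (Nat.div k 16) 16
def ds0 (k : ℕ) : ℕ := Nat.mod k 2
def ds1 (k : ℕ) : ℕ := Nat.mod (Nat.div k 2) 2
def ds2 (k : ℕ) : ℕ := Nat.mod (Nat.div k 4) 2
def ds3 (k : ℕ) : ℕ := Nat.mod (Nat.div k 8) 2

/-- The check of the decoding. -/
noncomputable def keyOK (X : Q8N) (k : ℕ) : Bool :=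
  ifB (Nat.beq (Nat.add (dP k) (neg1 X)) (pos1 X)) <|
  ifB (Nat.beq (Nat.add (dR k) (neg2 X)) (pos2 X)) <|
  ifB (Nat.beq (dr k) (Nat.add (bitN (l1N X)) (Nat.add (Nat.mul 2 (bitN (l2N X)))
        (Nat.add (Nat.mul 4 (bitN (l3N X))) (Nat.mul 8 (bitN (l4N X))))))) <|
  ifB (Nat.beq (ds0 k) (bitN (m1N X))) <|
  ifB (Nat.beq (ds1 k) (bitN (m2N X))) <|
  ifB (Nat.beq (ds2 k) (bitN (m3N X))) <|
  Nat.beq (ds3 k) (bitN (m4N X))

/-- The cell of the third coordinate. -/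
def third (k l : ℕ) : ℕ :=
  Nat.add (Nat.mul (Nat.add
      (Nat.mul (Nat.sub 4 (Nat.add (Nat.div (Nat.div k 256) 9) (Nat.div (Nat.div l 256) 9))) 9)
      (Nat.sub 6 (Nat.add (Nat.mod (Nat.div k 256) 9) (Nat.mod (Nat.div l 256) 9)))) 256)
    (Nat.add (Nat.mul (dr k) 16)
      (Nat.add (Nat.mod (Nat.add (ds0 k) (ds0 l)) 2)
        (Nat.add (Nat.mul 2 (Nat.mod (Nat.add (ds1 k) (ds1 l)) 2))
          (Nat.add (Nat.mul 4 (Nat.mod (Nat.add (ds2 k) (ds2 l)) 2))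
            (Nat.mul 8 (Nat.mod (Nat.add (ds3 k) (ds3 l)) 2))))))

/-! ### The list of short icosians -/

/-- Shifted coordinates, with squares and parities. -/
def pts : List (ℕ × ℕ × ℕ) :=
  [(0, 16, 0), (1, 9, 1), (2, 4, 0), (3, 1, 1), (4, 0, 0), (5, 1, 1), (6, 4, 0), (7, 9, 1), (8, 16, 0)]

/-- Loop through the coordinates. -/
noncomputable def coll (t : ℕ × ℕ × ℕ → List Q8N → List Q8N) (r : List Q8N) : List Q8N :=
  List.rec (motive := fun _ => List Q8N) r (fun a _ ih => t a ih) pts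

/-- A step. -/
noncomputable def stepB (c : Bool) (f : List Q8N → List Q8N) (r : List Q8N) : List Q8N :=
  Bool.rec r (f r) c

/-- The levels of the loop. -/
noncomputable def L8 (a0 b0 a1 b1 a2 b2 a3 : ℕ) (p m : ℕ) : List Q8N → List Q8N :=
  coll fun b3 => stepB (ifB (Nat.ble b3.2.1 m) (Nat.beq b3.2.2 p)) fun r => ⟨a0, b0, a1, b1, a2, b2, a3, b3.1⟩ :: r

noncomputable def L7 (a0 b0 a1 b1 a2 b2 : ℕ) (p q m : ℕ) : List Q8N → List Q8N :=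
  coll fun a3 => stepB (ifB (Nat.ble a3.2.1 m) (Nat.beq a3.2.2 p))
    (force (Nat.sub m a3.2.1) fun m' => L8 a0 b0 a1 b1 a2 b2 a3.1 q m')

noncomputable def L6 (a0 b0 a1 b1 a2 : ℕ) (p q q' m : ℕ) : List Q8N → List Q8N :=
  coll fun b2 => stepB (ifB (Nat.ble b2.2.1 m) (Nat.beq b2.2.2 p))
    (force (Nat.sub m b2.2.1) fun m' => L7 a0 b0 a1 b1 a2 b2.1 q q' m')

noncomputable def L5 (a0 b0 a1 b1 : ℕ) (p q q' q'' m : ℕ) : List Q8N → List Q8N :=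
  coll fun a2 => stepB (ifB (Nat.ble a2.2.1 m) (Nat.beq a2.2.2 p))
    (force (Nat.sub m a2.2.1) fun m' => L6 a0 b0 a1 b1 a2.1 q q' q'' m')

noncomputable def L4 (a0 b0 a1 : ℕ) (pa0 pb0 pa1 m : ℕ) : List Q8N → List Q8N :=
  coll fun b1 => stepB (Nat.ble b1.2.1 m)
    (force (Nat.sub m b1.2.1) fun m' => L5 a0 b0 a1 b1.1
      (Nat.mod (Nat.add pb0 (Nat.add pa1 b1.2.2)) 2) (Nat.mod (Nat.add pa0 (Nat.add pb0 pa1)) 2)
      (Nat.mod (Nat.add pa0 (Nat.add pb0 b1.2.2)) 2) (Nat.mod (Nat.add pa0 (Nat.add pa1 b1.2.2)) 2) m')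

noncomputable def L3 (a0 b0 : ℕ) (pa0 pb0 m : ℕ) : List Q8N → List Q8N :=
  coll fun a1 => stepB (Nat.ble a1.2.1 m)
    (force (Nat.sub m a1.2.1) fun m' => L4 a0 b0 a1.1 pa0 pb0 a1.2.2 m')

noncomputable def L2 (a0 : ℕ) (pa0 m : ℕ) : List Q8N → List Q8N :=
  coll fun b0 => stepB (Nat.ble b0.2.1 m)
    (force (Nat.sub m b0.2.1) fun m' => L3 a0 b0.1 pa0 b0.2.2 m')

/-- The list of all elements of `I` with `pN ≤ 16`. -/
noncomputable def listA : List Q8N :=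
  coll (fun a0 => stepB (Nat.ble a0.2.1 16) (force (Nat.sub 16 a0.2.1) fun m' => L2 a0.1 a0.2.2 m')) []

/-- Fold with checks. -/
noncomputable def goA (l : List Q8N) : ℕ → ℕ :=
  List.rec (motive := fun _ => ℕ → ℕ) (fun acc => acc)
    (fun X _ ih acc => force (keyF X) fun k =>
      Bool.rec 0 (force (Nat.add acc (Nat.add 1 (Nat.shiftLeft 1 (Nat.mul 15 (Nat.succ k))))) ih) (keyOK X k)) l

/-! ### The semantics of the list -/

/-- Monotone list transformers. -/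
def Mono (f : List Q8N → List Q8N) : Prop := ∀ r y, y ∈ r → y ∈ f r

/-- The transformer always adds `y`. -/
def Has (y : Q8N) (f : List Q8N → List Q8N) : Prop := ∀ r, y ∈ f r

theorem coll_mono' {t : ℕ × ℕ × ℕ → List Q8N → List Q8N} (h : ∀ a, Mono (t a)) (l : List (ℕ × ℕ × ℕ)) (r : List Q8N) (y : Q8N)
    (hy : y ∈ r) : y ∈ (List.rec (motive := fun _ => List Q8N) r (fun a _ ih => t a ih) l : List Q8N) := by
  induction l with
  | nil => exact hy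
  | cons a l ih => exact h a _ _ ih

theorem coll_has' {t : ℕ × ℕ × ℕ → List Q8N → List Q8N} (h : ∀ a, Mono (t a)) {l : List (ℕ × ℕ × ℕ)} {a : ℕ × ℕ × ℕ}
    (ha : a ∈ l) {y : Q8N} (hy : Has y (t a)) (r : List Q8N) :
    y ∈ (List.rec (motive := fun _ => List Q8N) r (fun a _ ih => t a ih) l : List Q8N) := by
  induction l with
  | nil => simp at ha
  | cons b l ih =>
    rcases List.mem_cons.1 ha with rfl | hb
    · exact hy _
    · exact h b _ _ (ih hb)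

theorem coll_mono {t : ℕ × ℕ × ℕ → List Q8N → List Q8N} (h : ∀ a, Mono (t a)) : Mono (coll t) :=
  fun r y hy => coll_mono' h pts r y hy

theorem coll_has {t : ℕ × ℕ × ℕ → List Q8N → List Q8N} (h : ∀ a, Mono (t a)) {a : ℕ × ℕ × ℕ}
    (ha : a ∈ pts) {y : Q8N} (hy : Has y (t a)) : Has y (coll t) :=
  fun r => coll_has' h ha hy r

theorem stepB_mono {c : Bool} {f : List Q8N → List Q8N} (h : Mono f) : Mono (stepB c f) := by
  intro r y hy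
  cases c
  · exact hy
  · exact h r y hy

theorem stepB_has {c : Bool} {f : List Q8N → List Q8N} {y : Q8N} (hc : c = true) (h : Has y f) :
    Has y (stepB c f) := by
  subst hc
  exact h

theorem L8_mono (a0 b0 a1 b1 a2 b2 a3 p m : ℕ) : Mono (L8 a0 b0 a1 b1 a2 b2 a3 p m) :=
  coll_mono fun _ => stepB_mono fun _ _ hy => List.mem_cons_of_mem _ hy

theorem L7_mono (a0 b0 a1 b1 a2 b2 p q m : ℕ) : Mono (L7 a0 b0 a1 b1 a2 b2 p q m) :=
  coll_mono fun _ => stepB_mono (by rw [force_eq]; exact L8_mono _ _ _ _ _ _ _ _ _)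

theorem L6_mono (a0 b0 a1 b1 a2 p q q' m : ℕ) : Mono (L6 a0 b0 a1 b1 a2 p q q' m) :=
  coll_mono fun _ => stepB_mono (by rw [force_eq]; exact L7_mono _ _ _ _ _ _ _ _ _)

theorem L5_mono (a0 b0 a1 b1 p q q' q'' m : ℕ) : Mono (L5 a0 b0 a1 b1 p q q' q'' m) :=
  coll_mono fun _ => stepB_mono (by rw [force_eq]; exact L6_mono _ _ _ _ _ _ _ _ _)

theorem L4_mono (a0 b0 a1 pa0 pb0 pa1 m : ℕ) : Mono (L4 a0 b0 a1 pa0 pb0 pa1 m) :=
  coll_mono fun _ => stepB_mono (by rw [force_eq]; exact L5_mono _ _ _ _ _ _ _ _ _)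

theorem L3_mono (a0 b0 pa0 pb0 m : ℕ) : Mono (L3 a0 b0 pa0 pb0 m) :=
  coll_mono fun _ => stepB_mono (by rw [force_eq]; exact L4_mono _ _ _ _ _ _ _)

theorem L2_mono (a0 pa0 m : ℕ) : Mono (L2 a0 pa0 m) :=
  coll_mono fun _ => stepB_mono (by rw [force_eq]; exact L3_mono _ _ _ _ _)

/-- The entry of a coordinate. -/
def entry (v : ℤ) : ℕ × ℕ × ℕ := ((v + 4).toNat, (v * v).toNat, (v % 2).toNat)

theorem bound_of_sq {v : ℤ} (h : v * v ≤ 16) : -4 ≤ v ∧ v ≤ 4 := by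
  constructor <;> nlinarith

theorem entry_mem {v : ℤ} (h : v * v ≤ 16) : entry v ∈ pts := by
  obtain ⟨h1, h2⟩ := bound_of_sq h
  interval_cases v <;> decide

theorem ifB_tests {a : ℕ} {b p q : ℕ} (h1 : a ≤ b) (h2 : p = q) :
    ifB (Nat.ble a b) (Nat.beq p q) = true := by
  rw [ifB_eq_true]
  exact ⟨Nat.ble_eq_true_of_le h1, by subst h2; exact Nat.beq_refl p⟩

theorem L8_has {a0 b0 a1 b1 a2 b2 a3 p m : ℕ} {b3 : ℤ} (h : b3 * b3 ≤ 16) (h1 : (entry b3).2.1 ≤ m)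
    (h2 : (entry b3).2.2 = p) : Has ⟨a0, b0, a1, b1, a2, b2, a3, (entry b3).1⟩ (L8 a0 b0 a1 b1 a2 b2 a3 p m) :=
  coll_has (fun _ => stepB_mono fun _ _ hy => List.mem_cons_of_mem _ hy) (entry_mem h)
    (stepB_has (ifB_tests h1 h2) fun _ => List.mem_cons_self)

theorem L7_has {a0 b0 a1 b1 a2 b2 p q m : ℕ} {a3 b3 : ℤ} (h : a3 * a3 ≤ 16) (h' : b3 * b3 ≤ 16)
    (h1 : (entry a3).2.1 ≤ m) (h2 : (entry a3).2.2 = p)
    (h3 : (entry b3).2.1 ≤ m - (entry a3).2.1) (h4 : (entry b3).2.2 = q) :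
    Has ⟨a0, b0, a1, b1, a2, b2, (entry a3).1, (entry b3).1⟩ (L7 a0 b0 a1 b1 a2 b2 p q m) :=
  coll_has (fun _ => stepB_mono (by rw [force_eq]; exact L8_mono _ _ _ _ _ _ _ _ _)) (entry_mem h)
    (stepB_has (ifB_tests h1 h2) (by rw [force_eq]; exact L8_has h' h3 h4))

theorem L6_has {a0 b0 a1 b1 a2 p q q' m : ℕ} {b2 a3 b3 : ℤ} (h : b2 * b2 ≤ 16) (h' : a3 * a3 ≤ 16) (h'' : b3 * b3 ≤ 16)
    (h1 : (entry b2).2.1 ≤ m) (h2 : (entry b2).2.2 = p)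
    (h3 : (entry a3).2.1 ≤ m - (entry b2).2.1) (h4 : (entry a3).2.2 = q)
    (h5 : (entry b3).2.1 ≤ m - (entry b2).2.1 - (entry a3).2.1) (h6 : (entry b3).2.2 = q') :
    Has ⟨a0, b0, a1, b1, a2, (entry b2).1, (entry a3).1, (entry b3).1⟩ (L6 a0 b0 a1 b1 a2 p q q' m) :=
  coll_has (fun _ => stepB_mono (by rw [force_eq]; exact L7_mono _ _ _ _ _ _ _ _ _)) (entry_mem h)
    (stepB_has (ifB_tests h1 h2) (by rw [force_eq]; exact L7_has h' h'' h3 h4 h5 h6))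

theorem L5_has {a0 b0 a1 b1 p q q' q'' m : ℕ} {a2 b2 a3 b3 : ℤ} (h : a2 * a2 ≤ 16) (h' : b2 * b2 ≤ 16)
    (h'' : a3 * a3 ≤ 16) (h3' : b3 * b3 ≤ 16)
    (h1 : (entry a2).2.1 ≤ m) (h2 : (entry a2).2.2 = p)
    (h3 : (entry b2).2.1 ≤ m - (entry a2).2.1) (h4 : (entry b2).2.2 = q)
    (h5 : (entry a3).2.1 ≤ m - (entry a2).2.1 - (entry b2).2.1) (h6 : (entry a3).2.2 = q')
    (h7 : (entry b3).2.1 ≤ m - (entry a2).2.1 - (entry b2).2.1 - (entry a3).2.1) (h8 : (entry b3).2.2 = q'') :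
    Has ⟨a0, b0, a1, b1, (entry a2).1, (entry b2).1, (entry a3).1, (entry b3).1⟩ (L5 a0 b0 a1 b1 p q q' q'' m) :=
  coll_has (fun _ => stepB_mono (by rw [force_eq]; exact L6_mono _ _ _ _ _ _ _ _ _)) (entry_mem h)
    (stepB_has (ifB_tests h1 h2) (by rw [force_eq]; exact L6_has h' h'' h3' h3 h4 h5 h6 h7 h8))

/-- A short icosian, in the order of the loop. -/
structure Short (x : Q8) : Prop where
  s0 : x.a0 * x.a0 ≤ 16
  s1 : x.b0 * x.b0 ≤ 16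
  s2 : x.a1 * x.a1 ≤ 16
  s3 : x.b1 * x.b1 ≤ 16
  s4 : x.a2 * x.a2 ≤ 16
  s5 : x.b2 * x.b2 ≤ 16
  s6 : x.a3 * x.a3 ≤ 16
  s7 : x.b3 * x.b3 ≤ 16
  hsum : (entry x.a0).2.1 + (entry x.b0).2.1 + (entry x.a1).2.1 + (entry x.b1).2.1 + (entry x.a2).2.1 +
    (entry x.b2).2.1 + (entry x.a3).2.1 + (entry x.b3).2.1 ≤ 16
  p1 : (entry x.a2).2.2 = ((entry x.b0).2.2 + ((entry x.a1).2.2 + (entry x.b1).2.2)) % 2
  p2 : (entry x.b2).2.2 = ((entry x.a0).2.2 + ((entry x.b0).2.2 + (entry x.a1).2.2)) % 2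
  p3 : (entry x.a3).2.2 = ((entry x.a0).2.2 + ((entry x.b0).2.2 + (entry x.b1).2.2)) % 2
  p4 : (entry x.b3).2.2 = ((entry x.a0).2.2 + ((entry x.a1).2.2 + (entry x.b1).2.2)) % 2

theorem par_eq {a b c d : ℤ} (h : (a - b - c - d) % 2 = 0) :
    (entry a).2.2 = ((entry b).2.2 + ((entry c).2.2 + (entry d).2.2)) % 2 := by
  simp only [entry]
  omega

theorem short_of {x : Q8} (hx : inI x) (hP : pN x ≤ 16) : Short x := by
  obtain ⟨p1, p2, p3, p4⟩ := hx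
  have n0 := mul_self_nonneg x.a0
  have n1 := mul_self_nonneg x.b0
  have n2 := mul_self_nonneg x.a1
  have n3 := mul_self_nonneg x.b1
  have n4 := mul_self_nonneg x.a2
  have n5 := mul_self_nonneg x.b2
  have n6 := mul_self_nonneg x.a3
  have n7 := mul_self_nonneg x.b3
  unfold pN at hP
  have hsum : (entry x.a0).2.1 + (entry x.b0).2.1 + (entry x.a1).2.1 + (entry x.b1).2.1 + (entry x.a2).2.1 +
      (entry x.b2).2.1 + (entry x.a3).2.1 + (entry x.b3).2.1 ≤ 16 := by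
    have : (((entry x.a0).2.1 + (entry x.b0).2.1 + (entry x.a1).2.1 + (entry x.b1).2.1 + (entry x.a2).2.1 +
      (entry x.b2).2.1 + (entry x.a3).2.1 + (entry x.b3).2.1 : ℕ) : ℤ) ≤ 16 := by
      push_cast
      simp only [entry]
      rw [Int.toNat_of_nonneg n0, Int.toNat_of_nonneg n1, Int.toNat_of_nonneg n2, Int.toNat_of_nonneg n3,
        Int.toNat_of_nonneg n4, Int.toNat_of_nonneg n5, Int.toNat_of_nonneg n6, Int.toNat_of_nonneg n7]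
      exact hP
    exact_mod_cast this
  exact ⟨by linarith only [hP, n1, n2, n3, n4, n5, n6, n7], by linarith only [hP, n0, n2, n3, n4, n5, n6, n7],
    by linarith only [hP, n0, n1, n3, n4, n5, n6, n7], by linarith only [hP, n0, n1, n2, n4, n5, n6, n7],
    by linarith only [hP, n0, n1, n2, n3, n5, n6, n7], by linarith only [hP, n0, n1, n2, n3, n4, n6, n7],
    by linarith only [hP, n0, n1, n2, n3, n4, n5, n7], by linarith only [hP, n0, n1, n2, n3, n4, n5, n6],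
    hsum, par_eq p1, par_eq p2, par_eq p3, par_eq p4⟩

theorem L4_has {a0 b0 a1 pa0 pb0 pa1 m : ℕ} {b1 a2 b2 a3 b3 : ℤ} (s3 : b1 * b1 ≤ 16) (s4 : a2 * a2 ≤ 16)
    (s5 : b2 * b2 ≤ 16) (s6 : a3 * a3 ≤ 16) (s7 : b3 * b3 ≤ 16)
    (h0 : (entry b1).2.1 ≤ m)
    (h1 : (entry a2).2.1 ≤ m - (entry b1).2.1) (h2 : (entry a2).2.2 = (pb0 + (pa1 + (entry b1).2.2)) % 2)
    (h3 : (entry b2).2.1 ≤ m - (entry b1).2.1 - (entry a2).2.1) (h4 : (entry b2).2.2 = (pa0 + (pb0 + pa1)) % 2)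
    (h5 : (entry a3).2.1 ≤ m - (entry b1).2.1 - (entry a2).2.1 - (entry b2).2.1)
    (h6 : (entry a3).2.2 = (pa0 + (pb0 + (entry b1).2.2)) % 2)
    (h7 : (entry b3).2.1 ≤ m - (entry b1).2.1 - (entry a2).2.1 - (entry b2).2.1 - (entry a3).2.1)
    (h8 : (entry b3).2.2 = (pa0 + (pa1 + (entry b1).2.2)) % 2) :
    Has ⟨a0, b0, a1, (entry b1).1, (entry a2).1, (entry b2).1, (entry a3).1, (entry b3).1⟩ (L4 a0 b0 a1 pa0 pb0 pa1 m) :=
  coll_has (fun _ => stepB_mono (by rw [force_eq]; exact L5_mono _ _ _ _ _ _ _ _ _)) (entry_mem s3)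
    (stepB_has (Nat.ble_eq_true_of_le h0) (by rw [force_eq]; exact L5_has s4 s5 s6 s7 h1 h2 h3 h4 h5 h6 h7 h8))

theorem ofQ_mem {x : Q8} (hx : inI x) (hP : pN x ≤ 16) : ofQ x ∈ listA := by
  obtain ⟨s0, s1, s2, s3, s4, s5, s6, s7, hsum, p1, p2, p3, p4⟩ := short_of hx hP
  have key : Has (ofQ x) (coll (fun a0 => stepB (Nat.ble a0.2.1 16) (force (Nat.sub 16 a0.2.1) fun m' => L2 a0.1 a0.2.2 m'))) := by
    refine coll_has (fun _ => stepB_mono (by rw [force_eq]; exact L2_mono _ _ _)) (entry_mem s0)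
      (stepB_has (Nat.ble_eq_true_of_le (by omega)) ?_)
    rw [force_eq]
    refine coll_has (fun _ => stepB_mono (by rw [force_eq]; exact L3_mono _ _ _ _ _)) (entry_mem s1)
      (stepB_has (Nat.ble_eq_true_of_le (by show (entry x.b0).2.1 ≤ 16 - (entry x.a0).2.1; omega)) ?_)
    rw [force_eq]
    refine coll_has (fun _ => stepB_mono (by rw [force_eq]; exact L4_mono _ _ _ _ _ _ _)) (entry_mem s2)
      (stepB_has (Nat.ble_eq_true_of_le (by show (entry x.a1).2.1 ≤ 16 - (entry x.a0).2.1 - (entry x.b0).2.1; omega)) ?_)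
    rw [force_eq]
    exact L4_has s3 s4 s5 s6 s7 (by show (entry x.b1).2.1 ≤ 16 - (entry x.a0).2.1 - (entry x.b0).2.1 - (entry x.a1).2.1; omega)
      (by show (entry x.a2).2.1 ≤ 16 - (entry x.a0).2.1 - (entry x.b0).2.1 - (entry x.a1).2.1 - (entry x.b1).2.1; omega) p1
      (by show (entry x.b2).2.1 ≤ 16 - (entry x.a0).2.1 - (entry x.b0).2.1 - (entry x.a1).2.1 - (entry x.b1).2.1 - (entry x.a2).2.1; omega) p2
      (by show (entry x.a3).2.1 ≤ 16 - (entry x.a0).2.1 - (entry x.b0).2.1 - (entry x.a1).2.1 - (entry x.b1).2.1 - (entry x.a2).2.1 - (entry x.b2).2.1; omega) p3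
      (by show (entry x.b3).2.1 ≤ 16 - (entry x.a0).2.1 - (entry x.b0).2.1 - (entry x.a1).2.1 - (entry x.b1).2.1 - (entry x.a2).2.1 - (entry x.b2).2.1 - (entry x.a3).2.1; omega) p4
  exact key []

theorem toQ_ofQ {x : Q8} (hx : inI x) (hP : pN x ≤ 16) : toQ (ofQ x) = x := by
  obtain ⟨s0, s1, s2, s3, s4, s5, s6, s7, -⟩ := short_of hx hP
  obtain ⟨h0, -⟩ := bound_of_sq s0
  obtain ⟨h1, -⟩ := bound_of_sq s1
  obtain ⟨h2, -⟩ := bound_of_sq s2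
  obtain ⟨h3, -⟩ := bound_of_sq s3
  obtain ⟨h4, -⟩ := bound_of_sq s4
  obtain ⟨h5, -⟩ := bound_of_sq s5
  obtain ⟨h6, -⟩ := bound_of_sq s6
  obtain ⟨h7, -⟩ := bound_of_sq s7
  apply ext' <;> simp only [toQ, ofQ] <;> omega

end Q8

end Cfsg.Agent.Lib.J2Ico
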