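import Cfsg.Agent.Lib.J2Ico.Enum
import Cfsg.Agent.Lib.J2Ico.Cells

/-!
# The count of the triples of short icosians, from the histogram
-/

set_option autoImplicit false
set_option linter.unusedSectionVars false

namespace Cfsg.Agent.Lib.J2Ico

open Cfsg.Agent.Lib.PermComp.Core (force force_eq app app_eq allL allL_eq_true memN memN_eq_true ifB ifB_eq_true)

namespace Q8

theorem pos1_neg1 (X : Q8N) : (pos1 X : ℤ) - neg1 X = pN (toQ X) := by
  simp only [pos1, neg1, Nat.add_eq, Nat.mul_eq, pN, toQ]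
  push_cast
  ring

theorem pos2_neg2 (X : Q8N) : (pos2 X : ℤ) - neg2 X = rN (toQ X) + 64 := by
  simp only [pos2, neg2, Nat.add_eq, Nat.mul_eq, rN, toQ]
  push_cast
  ring

theorem bitN_eq (v : ℕ) : bitN v = v % 4 / 2 := rfl

theorem bit_l1 (X : Q8N) : bitI (lam1 (toQ X)) = bitN (l1N X) := by
  have : l1N X = 2 * (X.b2 + X.b3) := rfl
  rw [bitN_eq, this]
  simp only [bitI, lam1, toQ]
  omega

theorem bit_l2 (X : Q8N) : bitI (lam2 (toQ X)) = bitN (l2N X) := by
  have : l2N X = 2 * (X.a2 + X.a3) := rfl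
  rw [bitN_eq, this]
  simp only [bitI, lam2, toQ]
  omega

theorem bit_l3 (X : Q8N) : bitI (lam3 (toQ X)) = bitN (l3N X) := by
  have : l3N X = X.b0 + (X.b1 + (X.b2 + (2 * X.a3 + 3 * X.b3))) := rfl
  rw [bitN_eq, this]
  simp only [bitI, lam3, toQ]
  omega

theorem bit_l4 (X : Q8N) : bitI (lam4 (toQ X)) = bitN (l4N X) := by
  have : l4N X = X.a0 + (X.a1 + (X.a2 + (X.a3 + 2 * X.b3))) := rfl
  rw [bitN_eq, this]
  simp only [bitI, lam4, toQ]
  omega

theorem bit_m1 (X : Q8N) : bitI (mu1 (toQ X)) = bitN (m1N X) := by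
  have : m1N X = X.b1 + (X.a2 + (2 * X.b2 + (3 * X.a3 + X.b3))) := rfl
  rw [bitN_eq, this]
  simp only [bitI, mu1, toQ]
  omega

theorem bit_m2 (X : Q8N) : bitI (mu2 (toQ X)) = bitN (m2N X) := by
  have : m2N X = X.a1 + (X.a2 + (X.b2 + (2 * X.a3 + 3 * X.b3))) := rfl
  rw [bitN_eq, this]
  simp only [bitI, mu2, toQ]
  omega

theorem bit_m3 (X : Q8N) : bitI (mu3 (toQ X)) = bitN (m3N X) := by
  have : m3N X = X.b0 + (3 * X.a2 + (X.b2 + (3 * X.a3 + 2 * X.b3))) := rfl
  rw [bitN_eq, this]
  simp only [bitI, mu3, toQ]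
  omega

theorem bit_m4 (X : Q8N) : bitI (mu4 (toQ X)) = bitN (m4N X) := by
  have : m4N X = X.a0 + (2 * X.a2 + (3 * X.b2 + (3 * X.a3 + 3 * X.b3))) := rfl
  rw [bitN_eq, this]
  simp only [bitI, mu4, toQ]
  omega

/-- What the code of a cell says about an element. -/
structure F (x : Q8) (k : ℕ) : Prop where
  hP : (dP k : ℤ) = pN x
  hR : (dR k : ℤ) - 64 = rN x
  hr : dr k = res1 x
  h0 : ds0 k = bitI (mu1 x)
  h1 : ds1 k = bitI (mu2 x)
  h2 : ds2 k = bitI (mu3 x)
  h3 : ds3 k = bitI (mu4 x)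

theorem keyOK_sound {X : Q8N} {k : ℕ} (h : keyOK X k = true) : F (toQ X) k := by
  simp only [keyOK, ifB_eq_true] at h
  obtain ⟨h1, h2, h3, h4, h5, h6, h7⟩ := h
  have e1 := Nat.eq_of_beq_eq_true h1
  have e2 := Nat.eq_of_beq_eq_true h2
  have e3 := Nat.eq_of_beq_eq_true h3
  have e4 := Nat.eq_of_beq_eq_true h4
  have e5 := Nat.eq_of_beq_eq_true h5
  have e6 := Nat.eq_of_beq_eq_true h6
  have e7 := Nat.eq_of_beq_eq_true h7
  refine ⟨?_, ?_, ?_, ?_, ?_, ?_, ?_⟩
  · rw [← pos1_neg1, ← e1]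
    simp only [Nat.add_eq]
    push_cast
    ring
  · have := pos2_neg2 X
    rw [← e2] at this
    simp only [Nat.add_eq] at this
    push_cast at this
    linarith
  · rw [e3, res1, bit_l1, bit_l2, bit_l3, bit_l4]
    show bitN (l1N X) + (2 * bitN (l2N X) + (4 * bitN (l3N X) + 8 * bitN (l4N X))) = _
    ring
  · rw [e4, bit_m1]
  · rw [e5, bit_m2]
  · rw [e6, bit_m3]
  · rw [e7, bit_m4]

/-! ### The histogram -/

/-- The sum of the powers. -/
def histSum (L : List ℕ) : ℕ := (L.map fun k => (2 ^ 15) ^ k).sum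

theorem goA_cons (X : Q8N) (l : List Q8N) (acc : ℕ) :
    goA (X :: l) acc = @Bool.rec (fun _ => ℕ) 0 (goA l (acc + (1 + 2 ^ 15 * (2 ^ 15) ^ keyF X))) (keyOK X (keyF X)) := by
  have e : ∀ k, Nat.add acc (Nat.add 1 (Nat.shiftLeft 1 (Nat.mul 15 (Nat.succ k)))) =
      acc + (1 + 2 ^ 15 * (2 ^ 15) ^ k) := by
    intro k
    show acc + (1 + 1 <<< (15 * (k + 1))) = _
    rw [Nat.one_shiftLeft, mul_add, pow_add, pow_mul, mul_one, mul_comm]
  show force (keyF X) (fun k => @Bool.rec (fun _ => ℕ) 0 (force (Nat.add acc (Nat.add 1 (Nat.shiftLeft 1 (Nat.mul 15 (Nat.succ k)))))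
      (goA l)) (keyOK X k)) = _
  rw [force_eq, force_eq, e]

theorem goA_spec (l : List Q8N) (acc : ℕ) (h : goA l acc ≠ 0) :
    (∀ X ∈ l, keyOK X (keyF X) = true) ∧ goA l acc = acc + l.length + 2 ^ 15 * histSum (l.map keyF) := by
  induction l generalizing acc with
  | nil => exact ⟨by simp, by simp [goA, histSum]⟩
  | cons X l ih =>
    rw [goA_cons] at h ⊢
    cases hk : keyOK X (keyF X) with
    | false => rw [hk] at h; exact absurd rfl h
    | true =>
      rw [hk] at h
      have h' : goA l (acc + (1 + 2 ^ 15 * (2 ^ 15) ^ keyF X)) ≠ 0 := h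
      obtain ⟨h1, h2⟩ := ih _ h'
      refine ⟨?_, ?_⟩
      · intro Y hY
        rcases List.mem_cons.1 hY with rfl | hY
        · exact hk
        · exact h1 Y hY
      · show goA l _ = _
        rw [h2]
        simp only [List.length_cons, List.map_cons, histSum, List.sum_cons]
        ring

/-- The digit lemma, by decomposition. -/
theorem histSum_decomp {B : ℕ} (L : List ℕ) (k : ℕ) : ∃ low high, (L.map fun k => B ^ k).sum = low + L.count k * B ^ k +
    high * B ^ (k + 1) ∧ low * B ≤ L.length * B ^ k := by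
  induction L with
  | nil => exact ⟨0, 0, by simp, by simp⟩
  | cons a L ih =>
    obtain ⟨low, high, h1, h2⟩ := ih
    have e : ((a :: L).map fun k => B ^ k).sum = B ^ a + (L.map fun k => B ^ k).sum := by simp
    rcases lt_trichotomy a k with ha | ha | ha
    · refine ⟨low + B ^ a, high, ?_, ?_⟩
      · rw [e, h1, List.count_cons_of_ne (by omega)]
        ring
      · by_cases hB : B = 0
        · subst hB
          simp only [mul_zero]
          exact Nat.zero_le _
        · have : B ^ a * B ≤ B ^ k := by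
            rw [← pow_succ]
            exact Nat.pow_le_pow_right (Nat.pos_of_ne_zero hB) ha
          rw [List.length_cons, add_mul, add_mul, one_mul]
          exact Nat.add_le_add h2 this
    · subst ha
      refine ⟨low, high, ?_, ?_⟩
      · rw [e, h1, List.count_cons_self]
        ring
      · exact le_trans h2 (Nat.mul_le_mul_right _ (by simp))
    · obtain ⟨d, rfl⟩ : ∃ d, a = k + 1 + d := ⟨a - (k + 1), by omega⟩
      refine ⟨low, high + B ^ d, ?_, ?_⟩
      · rw [e, h1, List.count_cons_of_ne (by omega), pow_add _ (k + 1) d]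
        ring
      · exact le_trans h2 (Nat.mul_le_mul_right _ (by simp))

theorem digit_general {B : ℕ} (hB : 0 < B) (L : List ℕ) (hL : L.length < B) (k : ℕ) :
    ((L.map fun k => B ^ k).sum / B ^ k) % B = L.count k := by
  obtain ⟨low, high, h1, h2⟩ := histSum_decomp (B := B) L k
  have hpos : 0 < B ^ k := by positivity
  have hlow : low < B ^ k := by
    have : low * B < B ^ k * B := by
      calc low * B ≤ L.length * B ^ k := h2
        _ < B * B ^ k := (Nat.mul_lt_mul_right hpos).2 hL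
        _ = _ := mul_comm _ _
    exact Nat.lt_of_mul_lt_mul_right this
  rw [h1]
  have e2 : low + L.count k * B ^ k + high * B ^ (k + 1) = low + B ^ k * (L.count k + high * B) := by
    rw [pow_succ]; ring
  rw [e2, Nat.add_mul_div_left _ _ hpos, Nat.div_eq_of_lt hlow, zero_add, Nat.add_mul_mod_self_right]
  exact Nat.mod_eq_of_lt (lt_of_le_of_lt List.count_le_length hL)

theorem digit_histSum (L : List ℕ) (hL : L.length < 2 ^ 15) (k : ℕ) :
    app 15 32767 (histSum L) k = L.count k := by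
  rw [app_eq (by norm_num)]
  have e : (2 : ℕ) ^ (15 * k) = (2 ^ 15) ^ k := pow_mul _ _ _
  rw [e]
  exact digit_general (by positivity) L hL k

/-! ### The sum over the cells -/

/-- The size of a cell. -/
def D (k : ℕ) : ℕ := app 15 32767 histT k

/-- The cells of a class. -/
def cellsOf (r : ℕ) : List ℕ := cellsByR.getD r []

/-- The cells can go together. -/
noncomputable def compat (k l : ℕ) : Bool :=
  ifB (Nat.ble (Nat.add (Nat.div (Nat.div k 256) 9) (Nat.div (Nat.div l 256) 9)) 4)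
    (Nat.ble (Nat.add (Nat.mod (Nat.div k 256) 9) (Nat.mod (Nat.div l 256) 9)) 6)

/-- The number of triples with the given two first cells. -/
noncomputable def val (k l : ℕ) : ℕ :=
  @Bool.rec (fun _ => ℕ) 0 (Nat.mul (Nat.mul (D k) (D l)) (D (third k l))) (compat k l)

/-- Kernel friendly sum. -/
noncomputable def sumL {α : Type} (f : α → ℕ) (l : List α) : ℕ :=
  List.rec (motive := fun _ => ℕ) 0 (fun a _ ih => Nat.add (f a) ih) l

theorem sumL_eq {α : Type} (f : α → ℕ) (l : List α) : sumL f l = (l.map f).sum := by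
  induction l with
  | nil => rfl
  | cons a l ih =>
    show f a + sumL f l = _
    rw [ih]
    simp

/-- The total. -/
noncomputable def totalK : ℕ :=
  sumL (fun C => sumL (fun k => sumL (fun l => val k l) C) C) cellsByR

/-- The check that the list of cells is complete. -/
noncomputable def cellsOK (k : ℕ) : Bool :=
  @Bool.rec (fun _ => Bool) (memN k (cellsOf (dr k))) true (Nat.beq (D k) 0)

theorem third_eq {k l m : ℕ} (hP : dP k + dP l + dP m = 16) (hR : dR k + dR l + dR m = 192) (hr : dr m = dr k)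
    (h0 : ds0 m = (ds0 k + ds0 l) % 2) (h1 : ds1 m = (ds1 k + ds1 l) % 2) (h2 : ds2 m = (ds2 k + ds2 l) % 2)
    (h3 : ds3 m = (ds3 k + ds3 l) % 2) : third k l = m ∧ compat k l = true := by
  have e1 : ∀ k, dP k = 4 * (k / 256 / 9) := fun _ => rfl
  have e2 : ∀ k, dR k = 4 * (k / 256 % 9) + 56 := fun _ => rfl
  have e3 : ∀ k, dr k = k / 16 % 16 := fun _ => rfl
  have e4 : ∀ k, ds0 k = k % 2 := fun _ => rfl
  have e5 : ∀ k, ds1 k = k / 2 % 2 := fun _ => rfl
  have e6 : ∀ k, ds2 k = k / 4 % 2 := fun _ => rfl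
  have e7 : ∀ k, ds3 k = k / 8 % 2 := fun _ => rfl
  have e8 : third k l = ((4 - (k / 256 / 9 + l / 256 / 9)) * 9 + (6 - (k / 256 % 9 + l / 256 % 9))) * 256 +
      (dr k * 16 + ((ds0 k + ds0 l) % 2 + (2 * ((ds1 k + ds1 l) % 2) + (4 * ((ds2 k + ds2 l) % 2) +
        8 * ((ds3 k + ds3 l) % 2))))) := rfl
  rw [e1, e1, e1] at hP
  rw [e2, e2, e2] at hR
  constructor
  · rw [e8, ← hr, ← h0, ← h1, ← h2, ← h3]
    simp only [e3, e4, e5, e6, e7]
    omega
  · simp only [compat, ifB_eq_true]
    constructor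
    · apply Nat.ble_eq_true_of_le
      show k / 256 / 9 + l / 256 / 9 ≤ 4
      omega
    · apply Nat.ble_eq_true_of_le
      show k / 256 % 9 + l / 256 % 9 ≤ 6
      omega

/-- The conditions on the coordinates of a minimal vector. -/
structure Cond (x y z : Q8) : Prop where
  hx : inI x
  hy : inI y
  hz : inI z
  hP : pN x + pN y + pN z = 16
  hR : rN x + rN y + rN z = 0
  r1 : res1 x = res1 y
  r2 : res1 x = res1 z
  s0 : bitI (mu1 z) = (bitI (mu1 x) + bitI (mu1 y)) % 2
  s1 : bitI (mu2 z) = (bitI (mu2 x) + bitI (mu2 y)) % 2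
  s2 : bitI (mu3 z) = (bitI (mu3 x) + bitI (mu3 y)) % 2
  s3 : bitI (mu4 z) = (bitI (mu4 x) + bitI (mu4 y)) % 2

theorem pN_nonneg (x : Q8) : 0 ≤ pN x := by
  unfold pN
  linarith [mul_self_nonneg x.a0, mul_self_nonneg x.b0, mul_self_nonneg x.a1, mul_self_nonneg x.b1,
    mul_self_nonneg x.a2, mul_self_nonneg x.b2, mul_self_nonneg x.a3, mul_self_nonneg x.b3]

/-- The elements of a cell. -/
noncomputable def cellA (k : ℕ) : Finset Q8 := ((listA.filter ((· == k) ∘ keyF)).map toQ).toFinset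

theorem card_cellA_le (k : ℕ) : (cellA k).card ≤ (listA.map keyF).count k := by
  refine le_trans (List.toFinset_card_le _) ?_
  rw [List.length_map, List.count_eq_countP, List.countP_map, List.countP_eq_length_filter]

/-- Triples of cells. -/
noncomputable def cellV (k l : ℕ) : Finset (Q8 × Q8 × Q8) :=
  if compat k l = true then cellA k ×ˢ (cellA l ×ˢ cellA (third k l)) else ∅

theorem card_biUnion_list_le {α β : Type} [DecidableEq α] [DecidableEq β] (C : List α) (G : α → Finset β) :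
    (C.toFinset.biUnion G).card ≤ (C.map fun i => (G i).card).sum := by
  induction C with
  | nil => simp
  | cons a C ih =>
    rw [List.toFinset_cons, Finset.biUnion_insert, List.map_cons, List.sum_cons]
    exact le_trans (Finset.card_union_le _ _) (Nat.add_le_add_left ih _)

theorem histT_eq_aux {T S : ℕ} (h : 26641 + 2 ^ 15 * T = 0 + 26641 + 2 ^ 15 * S) : T = S := by
  omega

theorem div_zero_aux {T N k : ℕ} (h : T < 2 ^ (15 * N)) (hk : N ≤ k) : T / 2 ^ (15 * k) = 0 :=
  Nat.div_eq_of_lt (lt_of_lt_of_le h (Nat.pow_le_pow_right (by norm_num) (by omega)))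

section Main

variable (c1 : goA listA 0 = 26641 + 2 ^ 15 * histT) (c2 : listA.length = 26641)
  (c3 : allL (fun a => allL (fun b => cellsOK (Nat.add (Nat.mul a 96) b)) (List.range 96)) (List.range 120) = true) (c4 : histT < 2 ^ (15 * 11520)) (c5 : totalK = 37800)

include c1 c2 in
theorem histT_eq : (∀ X ∈ listA, keyOK X (keyF X) = true) ∧ histT = histSum (listA.map keyF) := by
  obtain ⟨h1, h2⟩ := goA_spec listA 0 (by
    rw [c1]
    exact Nat.ne_of_gt (Nat.lt_of_lt_of_le (by norm_num : 0 < 26641) (Nat.le_add_right _ _)))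
  refine ⟨h1, ?_⟩
  rw [c1, c2] at h2
  exact histT_eq_aux h2

include c1 c2 in
theorem D_eq (k : ℕ) : D k = (listA.map keyF).count k := by
  rw [D, (histT_eq c1 c2).2]
  exact digit_histSum _ (by rw [List.length_map, c2]; norm_num) k

include c4 in
theorem D_zero {k : ℕ} (hk : 11520 ≤ k) : D k = 0 := by
  rw [D, app_eq (by norm_num), div_zero_aux c4 hk, Nat.zero_mod]

include c3 c4 in
theorem mem_cellsOf {k : ℕ} (hk : D k ≠ 0) : k ∈ cellsOf (dr k) := by
  have h1 : k < 11520 := by
    by_contra h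
    exact hk (D_zero c4 (by omega))
  have h2' := (allL_eq_true _ _).1 c3 (k / 96) (List.mem_range.2 (by omega))
  have h2 := (allL_eq_true _ _).1 h2' (k % 96) (List.mem_range.2 (Nat.mod_lt _ (by norm_num)))
  have e : Nat.add (Nat.mul (k / 96) 96) (k % 96) = k := Nat.div_add_mod' k 96
  rw [e] at h2
  unfold cellsOK at h2
  cases h3 : Nat.beq (D k) 0 with
  | true => exact absurd (Nat.eq_of_beq_eq_true h3) hk
  | false =>
    rw [h3] at h2
    exact (memN_eq_true _ _).1 h2

theorem cellsOf_mem {k : ℕ} : cellsOf (dr k) ∈ cellsByR := by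
  have h : dr k < cellsByR.length := by
    have e : dr k = k / 16 % 16 := rfl
    have e2 : cellsByR.length = 16 := rfl
    rw [e, e2]
    exact Nat.mod_lt _ (by norm_num)
  rw [cellsOf, List.getD_eq_getElem _ _ h]
  exact List.getElem_mem h

include c1 c2 in
/-- A short icosian is in its cell. -/
theorem facts_ofQ {x : Q8} (hx : inI x) (hP : pN x ≤ 16) :
    F x (keyF (ofQ x)) ∧ D (keyF (ofQ x)) ≠ 0 ∧ x ∈ cellA (keyF (ofQ x)) := by
  have h1 := ofQ_mem hx hP
  have h2 := keyOK_sound ((histT_eq c1 c2).1 _ h1)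
  rw [toQ_ofQ hx hP] at h2
  refine ⟨h2, ?_, ?_⟩
  · rw [D_eq c1 c2]
    exact (List.count_pos_iff.2 (List.mem_map_of_mem h1)).ne'
  · refine List.mem_toFinset.2 (List.mem_map.2 ⟨ofQ x, List.mem_filter.2 ⟨h1, by simp⟩, toQ_ofQ hx hP⟩)

include c1 c2 c3 c4 c5 in
/-- The upper bound. -/
theorem ncard_le (S : Set (Q8 × Q8 × Q8)) (hS : ∀ v ∈ S, Cond v.1 v.2.1 v.2.2) : S.Finite ∧ S.ncard ≤ 37800 := by
  classical
  set U : Finset (Q8 × Q8 × Q8) :=
    cellsByR.toFinset.biUnion fun C => C.toFinset.biUnion fun k => C.toFinset.biUnion fun l => cellV k l with hU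
  have hSU : S ⊆ (U : Set (Q8 × Q8 × Q8)) := by
    rintro ⟨x, y, z⟩ hv
    have hc := hS _ hv
    simp only at hc
    have nx := pN_nonneg x
    have ny := pN_nonneg y
    have nz := pN_nonneg z
    have hP := hc.hP
    have g1 := facts_ofQ c1 c2 hc.hx (by linarith only [hP, ny, nz])
    have g2 := facts_ofQ c1 c2 hc.hy (by linarith only [hP, nx, nz])
    have g3 := facts_ofQ c1 c2 hc.hz (by linarith only [hP, nx, ny])
    have f1 := g1.1
    have f2 := g2.1
    have f3 := g3.1
    have d1 := g1.2.1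
    have d2 := g2.2.1
    have m1 := g1.2.2
    have m2 := g2.2.2
    have m3 := g3.2.2
    have m4 := mem_cellsOf c3 c4 d1
    have m5 := mem_cellsOf c3 c4 d2
    have hdr : dr (keyF (ofQ y)) = dr (keyF (ofQ x)) := by
      rw [f1.hr, f2.hr, hc.r1]
    rw [hdr] at m5
    have hdr2 : dr (keyF (ofQ z)) = dr (keyF (ofQ x)) := by
      rw [f1.hr, f3.hr, hc.r2]
    have t0 := third_eq (k := keyF (ofQ x)) (l := keyF (ofQ y)) (m := keyF (ofQ z))
      (by
        have h1 := f1.hP
        have h2 := f2.hP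
        have h3 := f3.hP
        clear c1 c2 c3 c4 c5
        omega)
      (by
        have h1 := f1.hR
        have h2 := f2.hR
        have h3 := f3.hR
        have h4 := hc.hR
        clear c1 c2 c3 c4 c5
        omega)
      hdr2
      (by rw [f1.h0, f2.h0, f3.h0, hc.s0])
      (by rw [f1.h1, f2.h1, f3.h1, hc.s1])
      (by rw [f1.h2, f2.h2, f3.h2, hc.s2])
      (by rw [f1.h3, f2.h3, f3.h3, hc.s3])
    have t1 := t0.1
    have t2 := t0.2
    rw [hU, Finset.mem_coe, Finset.mem_biUnion]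
    refine ⟨cellsOf (dr (keyF (ofQ x))), List.mem_toFinset.2 cellsOf_mem, ?_⟩
    rw [Finset.mem_biUnion]
    refine ⟨keyF (ofQ x), List.mem_toFinset.2 m4, ?_⟩
    rw [Finset.mem_biUnion]
    refine ⟨keyF (ofQ y), List.mem_toFinset.2 m5, ?_⟩
    rw [cellV, if_pos t2, Finset.mem_product, Finset.mem_product, t1]
    exact ⟨m1, m2, m3⟩
  have hV : ∀ k l, (cellV k l).card ≤ val k l := by
    intro k l
    unfold cellV val
    cases h : compat k l with
    | false => simp
    | true =>
      simp only [if_true]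
      rw [Finset.card_product, Finset.card_product, ← mul_assoc]
      show _ ≤ D k * D l * D (third k l)
      rw [D_eq c1 c2, D_eq c1 c2, D_eq c1 c2]
      exact Nat.mul_le_mul (Nat.mul_le_mul (card_cellA_le _) (card_cellA_le _)) (card_cellA_le _)
  have hcard : U.card ≤ totalK := by
    refine le_trans (card_biUnion_list_le _ _) ?_
    rw [totalK, sumL_eq]
    refine List.sum_le_sum fun C _ => ?_
    refine le_trans (card_biUnion_list_le _ _) ?_
    rw [sumL_eq]
    refine List.sum_le_sum fun k _ => ?_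
    refine le_trans (card_biUnion_list_le _ _) ?_
    rw [sumL_eq]
    exact List.sum_le_sum fun l _ => hV k l
  refine ⟨(Finset.finite_toSet U).subset hSU, ?_⟩
  calc S.ncard ≤ (U : Set (Q8 × Q8 × Q8)).ncard := Set.ncard_le_ncard hSU (Finset.finite_toSet _)
    _ = U.card := Set.ncard_coe_finset U
    _ ≤ totalK := hcard
    _ = 37800 := c5

end Main

end Q8

end Cfsg.Agent.Lib.J2Ico
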