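import Cfsg.Agent.Lib.J2Ico.Rho
import Cfsg.Agent.Lib.J2Ico.Cert
import Cfsg.Agent.Lib.PermComp.Chain

/-!
# The group `twoJ2` and the permutation group of degree 315
-/

set_option autoImplicit false
set_option linter.unusedSectionVars false
set_option linter.constructorNameAsVariable false

noncomputable section

namespace Cfsg.Agent.Lib.J2Ico

open Cfsg.Spor Quaternion Cfsg.Agent.Lib.PermComp Cfsg.Agent.Lib.J2Ico.Cert

namespace Q8

/-- The indexing of the 315 points. -/
def e315 : Fin 315 ≃ Fin j2p_n := Equiv.refl _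

/-- The numbers of the generating reflections. -/
def genIdx : List ℕ := [281, 114, 289, 41]

/-- The check that the code `c` describes the conjugation action of the reflection number `k`. -/
def genOK (k c : ℕ) : Bool :=
  Core.allL (fun j => Core.force (Core.app 9 511 c j) fun m =>
    Core.ifB (Nat.ble (Nat.succ m) 315) (decide (rkL (reflQ (rep k) (rep j)) = rkL (rep m)))) (List.range 315)

/-- The check of all generators. -/
theorem gens_ok : Core.allL (fun p : ℕ × ℕ => Core.ifB (Nat.ble (Nat.succ p.1) 315) (genOK p.1 p.2)) (genIdx.zip j2p_G_T) = true := by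
  decide +kernel

theorem conj_refl_of_rk {k j m : Fin 315} (h : rkL (reflQ (rep k) (rep j)) = rkL (rep m)) :
    refl k * refl j * (refl k)⁻¹ = refl m := by
  have hk := rf_mem_linG (lamV k) (lamV_norm k)
  rw [refl, refl, conj_rf hk]
  refine rf_eq_of_key _ _ ?_
  have hq := qrefl_evv (lamV j).2 (lamV k).2 (rep_allI (rep_mem j.2)) (rep_allI (rep_mem k.2))
  have e : (rf (lamV k) (lamV_norm k) (lamV j)).1 = evv (reflQ (rep k) (rep j)) := hq.1
  rw [e]
  exact key_of_rk hq.2 (rep_allI (rep_mem m.2)) h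

/-- The reflection as an element of the class of linear isometries. -/
def reflG (j : Fin 315) : linG := ⟨refl j, rf_mem_linG _ _⟩

theorem rep_of_genOK {k : Fin 315} {c : ℕ} (h : genOK k c = true) :
    Core.Rep j2p_w j2p_mask e315 c (rho (reflG k)) := by
  intro a
  have h1 := (Core.allL_eq_true _ _).1 h a (List.mem_range.2 a.2)
  rw [Core.force_eq, Core.ifB_eq_true] at h1
  obtain ⟨h2, h3⟩ := h1
  have h4 : Core.app 9 511 c a < 315 := Nat.le_of_ble_eq_true h2
  have h5 := of_decide_eq_true h3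
  have h6 := conj_refl_of_rk (k := k) (j := a) (m := ⟨_, h4⟩) h5
  have h7 : rho (reflG k) a = ⟨_, h4⟩ := (rho_eq_iff _ _ _).2 h6
  show Core.app 9 511 c a = ((rho (reflG k)) a : ℕ)
  rw [h7]

theorem rep_of_mem_zip {p : ℕ × ℕ} (hp : p ∈ genIdx.zip j2p_G_T) :
    ∃ k : Fin 315, (k : ℕ) = p.1 ∧ Core.Rep j2p_w j2p_mask e315 p.2 (rho (reflG k)) := by
  have h := (Core.allL_eq_true _ _).1 gens_ok p hp
  rw [Core.ifB_eq_true] at h
  obtain ⟨h1, h2⟩ := h
  have h3 : p.1 < 315 := Nat.le_of_ble_eq_true h1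
  exact ⟨⟨p.1, h3⟩, rfl, rep_of_genOK h2⟩

theorem exists_zip {c : ℕ} (hc : c ∈ j2p_G_T) : ∃ k, (k, c) ∈ genIdx.zip j2p_G_T := by
  have h1 : genIdx.length = j2p_G_T.length := by decide +kernel
  obtain ⟨i, hi, rfl⟩ := List.mem_iff_getElem.1 hc
  refine ⟨genIdx[i]'(by rw [h1]; exact hi), ?_⟩
  rw [List.mem_iff_getElem]
  refine ⟨i, by simp [List.length_zip, ← h1]; omega, ?_⟩
  simp [List.getElem_zip]

theorem hT : ∀ c ∈ j2p_G_T, ∃ g, Core.Rep j2p_w j2p_mask e315 c g := by
  intro c hc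
  obtain ⟨k, hk⟩ := exists_zip hc
  obtain ⟨k', -, h⟩ := rep_of_mem_zip hk
  exact ⟨_, h⟩

/-- The group of degree 315. -/
def Hg : Subgroup (Equiv.Perm (Fin 315)) := Core.H j2p_w j2p_mask e315 j2p_G_T

theorem main_facts : j2p_mask = 2 ^ j2p_w - 1 ∧ (∀ i < j2p_n, Core.app j2p_w j2p_mask j2p_idc i = i) ∧
    j2p_idc < 2 ^ (j2p_n * j2p_w) ∧ Core.Sem j2p_w j2p_mask e315 j2p_L j2p_maskL j2p_G_levels ∧
    Core.H j2p_w j2p_mask e315 j2p_G_T = Core.H j2p_w j2p_mask e315 (Core.topGens j2p_G_levels) ∧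
    Nat.card (Core.H j2p_w j2p_mask e315 j2p_G_T) = Core.orderC j2p_G_levels :=
  Core.main_of_checkAll (e := e315) hT j2p_G_ok

theorem card_Hg : Nat.card Hg = 604800 :=
  main_facts.2.2.2.2.2.trans j2p_order

instance simple_Hg : IsSimpleGroup Hg :=
  Simple2.isSimple_of_cert2 (e := e315) hT j2p_G_ok j2p_order (by norm_num) j2p_reps_ok j2p_syls_ok j2p_prod

/-- The chain of the permutation group. -/
theorem sem_levels : Core.Sem j2p_w j2p_mask e315 j2p_L j2p_maskL j2p_G_levels := main_facts.2.2.2.1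

theorem lev0_sem : Core.LevelSem j2p_w j2p_mask e315 j2p_L j2p_maskL j2p_G_lev0 [j2p_G_lev1, j2p_G_lev2] :=
  sem_levels.1

theorem Hg_eq : Hg = Core.H j2p_w j2p_mask e315 j2p_G_lev0.gens := main_facts.2.2.2.2.1

theorem all_pts : Core.allL (fun a => Core.memN a (Core.ptsOf j2p_G_lev0)) (List.range 315) = true := by
  decide +kernel

/-- The permutation group is transitive, starting from the point number 281. -/
theorem Hg_transitive (a : Fin 315) : ∃ g ∈ Hg, g 281 = a := by
  have h1 := (Core.allL_eq_true _ _).1 all_pts a (List.mem_range.2 a.2)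
  have h2 := (Core.memN_eq_true _ _).1 h1
  have h3 := (Chain.orbit_iff lev0_sem (b := 281) (a := a) rfl).1 h2
  rw [← Hg_eq] at h3
  exact h3

end Q8

end Cfsg.Agent.Lib.J2Ico

end
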