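import Cfsg.Agent.Lib.J2Ico.Quot
import Cfsg.Agent.Lib.J2Ico.CertU
import Cfsg.Agent.Lib.J2Ico.Induced
import Cfsg.Agent.Lib.Chev.G22

/-!
# The subgroup of index 100 of the Hall-Janko group
-/

set_option autoImplicit false
set_option linter.unusedSectionVars false
set_option linter.constructorNameAsVariable false

noncomputable section

namespace Cfsg.Agent.Lib.J2Ico

open Cfsg.Spor Quaternion Cfsg.Agent.Lib.PermComp Cfsg.Agent.Lib.J2Ico.Cert Cfsg.Agent.Lib.J2Ico.CertU

namespace Q8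

/-! ### The action on the cosets of a point stabilizer -/

section Coset

variable {G X : Type*} [Group G] (ψ : G →* Equiv.Perm X) (p₀ : X)

/-- The stabilizer of a point, in a group acting through a homomorphism. -/
def stabOf : Subgroup G := (MulAction.stabilizer (Equiv.Perm X) p₀).comap ψ

theorem mem_stabOf {g : G} : g ∈ stabOf ψ p₀ ↔ ψ g p₀ = p₀ := by
  rw [stabOf, Subgroup.mem_comap, MulAction.mem_stabilizer_iff]
  rfl

/-- The map from the cosets to the points. -/
def cosetMap : G ⧸ stabOf ψ p₀ → X := fun c =>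
  Quotient.liftOn' c (fun a => ψ a p₀) (by
    intro a b hab
    rw [QuotientGroup.leftRel_apply, mem_stabOf, map_mul, map_inv, Equiv.Perm.mul_apply,
      Equiv.Perm.inv_eq_iff_eq] at hab
    exact hab.symm)

theorem cosetMap_mk (a : G) : cosetMap ψ p₀ (QuotientGroup.mk a) = ψ a p₀ := rfl

theorem cosetMap_injective : Function.Injective (cosetMap ψ p₀) := by
  intro c d
  induction c using QuotientGroup.induction_on with
  | H a =>
    induction d using QuotientGroup.induction_on with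
    | H b =>
      intro h
      rw [cosetMap_mk, cosetMap_mk] at h
      rw [QuotientGroup.eq, mem_stabOf, map_mul, map_inv, Equiv.Perm.mul_apply,
        Equiv.Perm.inv_eq_iff_eq]
      exact h.symm

theorem cosetMap_smul (h : stabOf ψ p₀) (c : G ⧸ stabOf ψ p₀) :
    cosetMap ψ p₀ (h • c) = ψ h.1 (cosetMap ψ p₀ c) := by
  induction c using QuotientGroup.induction_on with
  | H a =>
    have h1 : h • (QuotientGroup.mk a : G ⧸ stabOf ψ p₀) = QuotientGroup.mk (h.1 * a) := rfl
    rw [h1, cosetMap_mk, cosetMap_mk, map_mul]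
    rfl

/-- The orbits on the cosets are the orbits on the points. -/
theorem orbit_ncard {g : G} {q : X} (hg : ψ g p₀ = q) (O : Set X)
    (hO : ∀ x, x ∈ O ↔ ∃ h ∈ stabOf ψ p₀, ψ h q = x) :
    (MulAction.orbit (stabOf ψ p₀) (QuotientGroup.mk g : G ⧸ stabOf ψ p₀)).ncard = O.ncard := by
  have h1 : cosetMap ψ p₀ '' (MulAction.orbit (stabOf ψ p₀) (QuotientGroup.mk g : G ⧸ stabOf ψ p₀)) = O := by
    ext x
    rw [hO]
    constructor
    · rintro ⟨_, ⟨h, rfl⟩, rfl⟩
      refine ⟨h.1, h.2, ?_⟩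
      have h2 := cosetMap_smul ψ p₀ h (QuotientGroup.mk g)
      rw [cosetMap_mk, hg] at h2
      exact h2.symm
    · rintro ⟨h, hh, rfl⟩
      refine ⟨_, ⟨⟨h, hh⟩, rfl⟩, ?_⟩
      have h2 := cosetMap_smul ψ p₀ ⟨h, hh⟩ (QuotientGroup.mk g)
      rw [cosetMap_mk, hg] at h2
      exact h2
  rw [← h1, Set.ncard_image_of_injective _ (cosetMap_injective ψ p₀)]

end Coset

/-! ### The action of degree 100 -/

/-- The relation between the 315 points and the 100 subsets. -/
def rOm (x i : ℕ) : Bool := Core.bit (Core.app j2p_n omMask omTbl i) x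

/-- The generators of the group of degree 315 and their actions on the subsets. -/
def Pom : List (ℕ × ℕ) := j2p_G_T.zip g100_T

theorem Pom_ok : Core.allL (Induced.pairOK j2p_n p100_n j2p_w j2p_mask p100_w p100_mask rOm) Pom = true := by
  decide +kernel

theorem rOm_sep : Induced.sepOK j2p_n p100_n rOm = true := by decide +kernel

theorem Pom1 : Pom.map (·.1) = j2p_G_T := by decide +kernel

theorem Pom2 : Pom.map (·.2) = g100_T := by decide +kernel

theorem valid_g100 : Core.allL (Simple.validB p100_n p100_w p100_mask p100_idc) g100_T = true := by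
  decide +kernel

theorem hm100 : p100_mask = 2 ^ p100_w - 1 := by decide +kernel

theorem hid100 : ∀ i < p100_n, Core.app p100_w p100_mask p100_idc i = i := by decide +kernel

/-- The indexing of the 100 subsets. -/
def e100 : Fin 100 ≃ Fin p100_n := Equiv.refl _

theorem rep_g100 : ∀ c ∈ g100_T, ∃ g, Core.Rep p100_w p100_mask e100 c g := fun c hc =>
  Simple.exists_rep_of_valid hm100 hid100 ((Core.allL_eq_true _ _).1 valid_g100 c hc)

/-- The group of degree 100. -/
abbrev G100 : Subgroup (Equiv.Perm (Fin 100)) := Core.H p100_w p100_mask e100 g100_T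

theorem exists_phi100 : ∃ φ : Hg →* Equiv.Perm (Fin 100), φ.range = G100 := by
  have h := Induced.exists_hom_of_pairs (w := j2p_w) (mask := j2p_mask) (e := e315) (w' := p100_w)
    (mask' := p100_mask) (e' := e100) (Induced.relOf e315 e100 rOm)
    (fun i j hij => Induced.sep_of_sepOK rOm_sep i j hij) Pom
    (fun p hp => hT p.1 (Pom1 ▸ List.mem_map.2 ⟨p, hp, rfl⟩))
    (fun p hp => rep_g100 p.2 (Pom2 ▸ List.mem_map.2 ⟨p, hp, rfl⟩))
    (fun p hp g σ hg hσ => Induced.invR_of_pairOK ((Core.allL_eq_true _ _).1 Pom_ok p hp) hg hσ)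
  rw [Pom1, Pom2] at h
  obtain ⟨φ, -, h2⟩ := h
  exact ⟨φ, h2⟩

theorem g100_facts : p100_mask = 2 ^ p100_w - 1 ∧ (∀ i < p100_n, Core.app p100_w p100_mask p100_idc i = i) ∧
    p100_idc < 2 ^ (p100_n * p100_w) ∧ Core.Sem p100_w p100_mask e100 p100_L p100_maskL g100_levels ∧
    Core.H p100_w p100_mask e100 g100_T = Core.H p100_w p100_mask e100 (Core.topGens g100_levels) ∧
    Nat.card (Core.H p100_w p100_mask e100 g100_T) = Core.orderC g100_levels :=
  Core.main_of_checkAll (e := e100) rep_g100 g100_ok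

theorem card_G100 : Nat.card G100 = 604800 := g100_facts.2.2.2.2.2.trans g100_order

theorem g100_lev0_sem : Core.LevelSem p100_w p100_mask e100 p100_L p100_maskL g100_lev0 [g100_lev1, g100_lev2, g100_lev3] :=
  g100_facts.2.2.2.1.1

theorem G100_eq : G100 = Core.H p100_w p100_mask e100 g100_lev0.gens := g100_facts.2.2.2.2.1

/-- The stabilizer of the subset number 0 in the group of degree 100. -/
theorem stab_G100 : G100 ⊓ MulAction.stabilizer (Equiv.Perm (Fin 100)) (0 : Fin 100) =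
    Core.H p100_w p100_mask e100 g100_lev1.gens := by
  rw [G100_eq]
  exact Chain.stab_eq g100_lev0_sem rfl

theorem sem_tail : Core.Sem p100_w p100_mask e100 p100_L p100_maskL [g100_lev1, g100_lev2, g100_lev3] :=
  g100_facts.2.2.2.1.2

theorem order_tail : Core.orderC [g100_lev1, g100_lev2, g100_lev3] = 6048 := by decide +kernel

theorem card_stab : Nat.card (Core.H p100_w p100_mask e100 g100_lev1.gens) = 6048 :=
  (Core.card_of_sem [g100_lev1, g100_lev2, g100_lev3] sem_tail).trans order_tail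

/-! ### The group of order 6048 -/

theorem valid_ua : Core.allL (Simple.validB p100_n p100_w p100_mask p100_idc) ua_T = true := by decide +kernel

theorem ua_eq_ub : ub_T = ua_T := by decide +kernel

theorem rep_ua : ∀ c ∈ ua_T, ∃ g, Core.Rep p100_w p100_mask e100 c g := fun c hc =>
  Simple.exists_rep_of_valid hm100 hid100 ((Core.allL_eq_true _ _).1 valid_ua c hc)

theorem rep_ub : ∀ c ∈ ub_T, ∃ g, Core.Rep p100_w p100_mask e100 c g := by
  rw [ua_eq_ub]
  exact rep_ua

/-- The group of order 6048. -/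
abbrev UT : Subgroup (Equiv.Perm (Fin 100)) := Core.H p100_w p100_mask e100 ua_T

theorem ua_facts : p100_mask = 2 ^ p100_w - 1 ∧ (∀ i < p100_n, Core.app p100_w p100_mask p100_idc i = i) ∧
    p100_idc < 2 ^ (p100_n * p100_w) ∧ Core.Sem p100_w p100_mask e100 p100_L p100_maskL ua_levels ∧
    Core.H p100_w p100_mask e100 ua_T = Core.H p100_w p100_mask e100 (Core.topGens ua_levels) ∧
    Nat.card (Core.H p100_w p100_mask e100 ua_T) = Core.orderC ua_levels :=
  Core.main_of_checkAll (e := e100) rep_ua ua_ok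

theorem ub_facts : p100_mask = 2 ^ p100_w - 1 ∧ (∀ i < p100_n, Core.app p100_w p100_mask p100_idc i = i) ∧
    p100_idc < 2 ^ (p100_n * p100_w) ∧ Core.Sem p100_w p100_mask e100 p100_L p100_maskL ub_levels ∧
    Core.H p100_w p100_mask e100 ub_T = Core.H p100_w p100_mask e100 (Core.topGens ub_levels) ∧
    Nat.card (Core.H p100_w p100_mask e100 ub_T) = Core.orderC ub_levels :=
  Core.main_of_checkAll (e := e100) rep_ub ub_ok

theorem card_UT : Nat.card UT = 6048 := ua_facts.2.2.2.2.2.trans ua_order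

theorem sift_ua : Core.allL (Core.sift p100_n p100_w p100_mask p100_L p100_maskL p100_idc [g100_lev1, g100_lev2, g100_lev3])
    ua_T = true := by decide +kernel

theorem UT_le : UT ≤ Core.H p100_w p100_mask e100 g100_lev1.gens := by
  refine (Subgroup.closure_le _).2 ?_
  rintro g ⟨c, hc, hg⟩
  exact Core.sift_sound_of_sem (e := e100) hm100 hid100 [g100_lev1, g100_lev2, g100_lev3] sem_tail c g hg
    ((Core.allL_eq_true _ _).1 sift_ua c hc)

theorem UT_eq : UT = Core.H p100_w p100_mask e100 g100_lev1.gens := by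
  apply Subgroup.eq_of_le_of_card_ge UT_le
  rw [card_UT, card_stab]

theorem UT_eq_stab : G100 ⊓ MulAction.stabilizer (Equiv.Perm (Fin 100)) (0 : Fin 100) = UT := by
  rw [stab_G100, UT_eq]

/-- The orbits of the group of order 6048. -/
theorem orbit_UT_36 : {x : Fin 100 | ∃ u ∈ UT, u 14 = x}.ncard = 36 := by
  have h1 : Core.LevelSem p100_w p100_mask e100 p100_L p100_maskL ua_lev0 [ua_lev1, ua_lev2] := ua_facts.2.2.2.1.1
  have h2 : UT = Core.H p100_w p100_mask e100 ua_lev0.gens := ua_facts.2.2.2.2.1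
  have h3 : ∀ x : Fin 100, x ∈ {x : Fin 100 | ∃ u ∈ UT, u 14 = x} ↔ ((e100 x : ℕ) ∈ Core.ptsOf ua_lev0) := by
    intro x
    rw [Chain.orbit_iff h1 (b := 14) rfl x, ← h2]
    rfl
  have hlen : (Core.ptsOf ua_lev0).length = 36 := by decide +kernel
  obtain ⟨b, u, -, -, -, hlt, hnd, -⟩ := h1
  have h4 := Core.card_points (e := e100) hlt hnd
  rw [hlen] at h4
  rw [← Nat.card_coe_set_eq, ← h4]
  exact Nat.card_congr (Equiv.subtypeEquivRight h3)

theorem orbit_UT_63 : {x : Fin 100 | ∃ u ∈ UT, u 1 = x}.ncard = 63 := by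
  have h1 : Core.LevelSem p100_w p100_mask e100 p100_L p100_maskL ub_lev0 [ub_lev1, ub_lev2] := ub_facts.2.2.2.1.1
  have h2 : UT = Core.H p100_w p100_mask e100 ub_lev0.gens := by
    have h5 := ub_facts.2.2.2.2.1
    rw [ua_eq_ub] at h5
    exact h5
  have h3 : ∀ x : Fin 100, x ∈ {x : Fin 100 | ∃ u ∈ UT, u 1 = x} ↔ ((e100 x : ℕ) ∈ Core.ptsOf ub_lev0) := by
    intro x
    rw [Chain.orbit_iff h1 (b := 1) rfl x, ← h2]
    rfl
  have hlen : (Core.ptsOf ub_lev0).length = 63 := by decide +kernel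
  obtain ⟨b, u, -, -, -, hlt, hnd, -⟩ := h1
  have h4 := Core.card_points (e := e100) hlt hnd
  rw [hlen] at h4
  rw [← Nat.card_coe_set_eq, ← h4]
  exact Nat.card_congr (Equiv.subtypeEquivRight h3)

/-! ### The isomorphism with the special unitary group -/

open Cfsg.Agent.Lib.Chev.PermDiag Cfsg.Agent.Lib.Chev.G22Data Cfsg.Agent.Lib.Chev.G22

theorem t324_ok : ∀ x ∈ t324, tripleOK 9 511 100 224 x = true := by decide +kernel

theorem t324_1 : t324.map (·.1) = ua_T := by decide +kernel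

theorem t324_2 : t324.map (·.2.1) = cB_T := by decide +kernel

theorem t324_3 : t324.map (·.2.2) = d324_T := by decide +kernel

theorem rep_ua9 : ∀ c ∈ ua_T, ∃ g, Core.Rep 9 511 (Equiv.refl (Fin 100)) c g := rep_ua

theorem rep_d324 : ∀ c ∈ t324.map (·.2.2), ∃ g, Core.Rep 9 511 (eSum 100 224) c g := by
  intro c hc
  obtain ⟨x, hx, rfl⟩ := List.mem_map.1 hc
  obtain ⟨g1, h1⟩ := rep_ua9 x.1 (by rw [← t324_1]; exact List.mem_map_of_mem hx)
  obtain ⟨g2, h2⟩ := exists_repB x.2.1 (by rw [← t324_2]; exact List.mem_map_of_mem hx)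
  exact ⟨_, rep_sum (t324_ok x hx) h1 h2⟩

theorem d324_ok' : Core.checkAll (100 + 224) 9 511 p324_L p324_maskL p324_idc (t324.map (·.2.2)) d324_prog d324_levels = true := by
  rw [t324_3]
  exact d324_ok

theorem card_d324 : Nat.card (Core.H 9 511 (eSum 100 224) (t324.map (·.2.2))) = 6048 := by
  obtain ⟨-, -, -, -, -, h⟩ := Core.main_of_checkAll (e := eSum 100 224) rep_d324 d324_ok'
  rw [h, d324_order]

theorem UT_equiv_B : Nonempty (UT ≃* Core.H 9 511 (Equiv.refl (Fin 224)) cB_T) := by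
  have h := equiv_of_triples (w := 9) (mask := 511) (N₁ := 100) (N₂ := 224) t324
    (fun x hx => rep_ua9 x.1 (by rw [← t324_1]; exact List.mem_map_of_mem hx))
    (fun x hx => exists_repB x.2.1 (by rw [← t324_2]; exact List.mem_map_of_mem hx))
    t324_ok
    (by rw [t324_1, card_d324]; exact card_UT) (by rw [t324_2, card_B, card_d324])
  rw [t324_1, t324_2] at h
  exact h

theorem UT_equiv_PSU : Nonempty (UT ≃* Cfsg.PSU 3 Cfsg.Agent.Lib.Small.F9.Fnine 3) := by
  obtain ⟨e3⟩ := UT_equiv_B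
  obtain ⟨e2⟩ := nonempty_SU_equiv
  have hK : Fintype.card Cfsg.Agent.Lib.Small.F9.Fnine = 3 ^ 2 := by
    rw [Cfsg.Agent.Lib.Small.F9.Fnine.card_eq]; norm_num
  have hc := Cfsg.Agent.Lib.Classical.HermOrders.card_center_SU (F := Cfsg.Agent.Lib.Small.F9.Fnine) (q := 3) hK 3 (by norm_num)
  have hbot : Subgroup.center (Cfsg.SU 3 Cfsg.Agent.Lib.Small.F9.Fnine 3) = ⊥ := by
    apply Subgroup.eq_bot_of_card_eq
    rw [hc]
    norm_num
  have e4 : Cfsg.PSU 3 Cfsg.Agent.Lib.Small.F9.Fnine 3 ≃* Cfsg.SU 3 Cfsg.Agent.Lib.Small.F9.Fnine 3 :=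
    (QuotientGroup.quotientMulEquivOfEq hbot).trans QuotientGroup.quotientBot
  exact ⟨e3.trans (e2.symm.trans e4.symm)⟩

/-! ### The subgroup of the Hall-Janko group -/

/-- The main statement, for a homomorphism from the Hall-Janko group. -/
theorem main_of_phi (φ : Hg →* Equiv.Perm (Fin 100)) (hφ : φ.range = G100) :
    ∃ H : Subgroup J2, H.index = 100 ∧ Nonempty (H ≃* Cfsg.PSU 3 Cfsg.Agent.Lib.Small.F9.Fnine 3) ∧
      ∃ c₁ c₂ : J2 ⧸ H, (MulAction.orbit H c₁).ncard = 36 ∧ (MulAction.orbit H c₂).ncard = 63 := by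
  let ψ : J2 →* Equiv.Perm (Fin 100) := φ.comp j2Equiv.toMonoidHom
  have hrange : ψ.range = G100 := by
    rw [← hφ, MonoidHom.range_comp, MonoidHom.range_eq_top.2 j2Equiv.surjective, ← MonoidHom.range_eq_map]
  have hJ : Nat.card J2 = 604800 := card_J2
  have hinj : Function.Injective ψ := by
    have h1 : Nat.card ψ.range = Nat.card J2 := by rw [hrange, card_G100, hJ]
    have : Finite J2 := Nat.finite_of_card_ne_zero (by rw [hJ]; norm_num)
    have h2 := Subgroup.index_ker ψ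
    have h3 := Subgroup.card_mul_index ψ.ker
    rw [h2, h1] at h3
    have h4 : Nat.card ψ.ker = 1 := by
      rw [hJ] at h3
      omega
    have h5 : ψ.ker = ⊥ := (Subgroup.card_eq_one).1 h4 
    exact (MonoidHom.ker_eq_bot_iff ψ).1 h5
  set H := stabOf ψ (0 : Fin 100) with hH
  -- the image of `H`
  have hmap : H.map ψ = UT := by
    rw [← UT_eq_stab]
    ext x
    constructor
    · rintro ⟨h, hh, rfl⟩
      refine ⟨hrange ▸ ⟨h, rfl⟩, MulAction.mem_stabilizer_iff.2 ?_⟩
      exact (mem_stabOf ψ 0).1 hh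
    · rintro ⟨h1, h2⟩
      rw [← hrange] at h1
      obtain ⟨g, rfl⟩ := h1
      exact ⟨g, (mem_stabOf ψ 0).2 (MulAction.mem_stabilizer_iff.1 h2), rfl⟩
  let eH : H ≃* UT := (H.equivMapOfInjective ψ hinj).trans (MulEquiv.subgroupCongr hmap)
  have hcardH : Nat.card H = 6048 := by rw [Nat.card_congr eH.toEquiv, card_UT]
  have hindex : H.index = 100 := by
    have h3 := Subgroup.card_mul_index H
    rw [hcardH, hJ] at h3
    omega
  have horb : ∀ (q : Fin 100) (hq : (e100 q : ℕ) ∈ Core.ptsOf g100_lev0),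
      ∃ c : J2 ⧸ H, (MulAction.orbit H c).ncard = {x : Fin 100 | ∃ u ∈ UT, u q = x}.ncard := by
    intro q hq
    obtain ⟨u, hu, huq⟩ := (Chain.orbit_iff g100_lev0_sem (b := 0) rfl q).1 hq
    rw [← G100_eq, ← hrange] at hu
    obtain ⟨g, rfl⟩ := hu
    refine ⟨QuotientGroup.mk g, orbit_ncard ψ 0 huq _ ?_⟩
    intro x
    constructor
    · rintro ⟨u, hu, rfl⟩
      rw [← hmap] at hu
      obtain ⟨h, hh, rfl⟩ := hu
      exact ⟨h, hh, rfl⟩
    · rintro ⟨h, hh, rfl⟩
      exact ⟨ψ h, hmap ▸ ⟨h, hh, rfl⟩, rfl⟩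
  have h14 : ((e100 14 : Fin p100_n) : ℕ) ∈ Core.ptsOf g100_lev0 :=
    (Core.memN_eq_true _ _).1 (by decide +kernel)
  have h1 : ((e100 1 : Fin p100_n) : ℕ) ∈ Core.ptsOf g100_lev0 :=
    (Core.memN_eq_true _ _).1 (by decide +kernel)
  obtain ⟨c₁, hc₁⟩ := horb 14 h14
  obtain ⟨c₂, hc₂⟩ := horb 1 h1
  obtain ⟨e5⟩ := UT_equiv_PSU
  exact ⟨H, hindex, ⟨eH.trans e5⟩, c₁, c₂, hc₁.trans orbit_UT_36, hc₂.trans orbit_UT_63⟩

theorem main_index100 : ∃ H : Subgroup J2, H.index = 100 ∧
    (∃ (F : Type) (_ : Field F) (_ : Fintype F), Fintype.card F = 9 ∧ Nonempty (H ≃* Cfsg.PSU 3 F 3)) ∧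
    ∃ c₁ c₂ : J2 ⧸ H, (MulAction.orbit H c₁).ncard = 36 ∧ (MulAction.orbit H c₂).ncard = 63 := by
  obtain ⟨φ, hφ⟩ := exists_phi100
  obtain ⟨H, h1, h2, h3⟩ := main_of_phi φ hφ
  exact ⟨H, h1, ⟨Cfsg.Agent.Lib.Small.F9.Fnine, inferInstance, inferInstance,
    Cfsg.Agent.Lib.Small.F9.Fnine.card_eq, h2⟩, h3⟩

end Q8

end Cfsg.Agent.Lib.J2Ico

end
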