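import Cfsg.Agent.Lib.J2Ico.Ring

/-!
# The icosian Leech lattice: the products, the reflections

The Hermitian products of lattice vectors are in `2I`. Hence the quaternionic reflections in the
vectors of norm `4` are permutations of the lattice. They are additive, left `I`-linear isometries,
and conjugating a reflection by such a map gives the reflection in the image vector.
-/

set_option autoImplicit false
set_option linter.unusedSectionVars false

noncomputable section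

namespace Cfsg.Agent.Lib.J2Ico

open Cfsg.Spor Quaternion

/-- The coordinates of `h`. -/
def Hq : Q8 := ⟨1, -2, 1, 0, 1, 0, 1, 0⟩

theorem icoH_eq : icoH = Q8.E Hq := by
  have h := sqrt5_eq
  apply Quaternion.ext <;> simp [icoH, Q8.ev, Hq, h]
  ring

theorem h_mem : icoH ∈ icosians := by
  rw [icoH_eq]
  exact Q8.E_mem (by decide)

theorem hb_mem : star icoH ∈ icosians := Q8.star_mem h_mem

theorem h_hb : icoH * star icoH = 2 := by
  rw [icoH_eq, Q8.E_conj, Q8.E_mul_of (z := ⟨4, 0, 0, 0, 0, 0, 0, 0⟩) (by decide), ← one_add_one_eq_two]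
  apply Quaternion.ext <;> simp [Q8.ev]
  norm_num

theorem hb_h : star icoH * icoH = 2 := by
  rw [icoH_eq, Q8.E_conj, Q8.E_mul_of (z := ⟨4, 0, 0, 0, 0, 0, 0, 0⟩) (by decide), ← one_add_one_eq_two]
  apply Quaternion.ext <;> simp [Q8.ev]
  norm_num

theorem two_mem : (2 : ℍ[ℝ]) ∈ icosians := by
  rw [← h_hb]
  exact icosians.mul_mem h_mem hb_mem

section Ideal

variable {q : ℍ[ℝ]}

theorem leftIdeal_add {x y : ℍ[ℝ]} (hx : x ∈ leftIdeal q) (hy : y ∈ leftIdeal q) :
    x + y ∈ leftIdeal q := by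
  obtain ⟨a, ha, rfl⟩ := hx
  obtain ⟨b, hb, rfl⟩ := hy
  exact ⟨a + b, icosians.add_mem ha hb, (add_mul _ _ _).symm⟩

theorem leftIdeal_neg {x : ℍ[ℝ]} (hx : x ∈ leftIdeal q) : - x ∈ leftIdeal q := by
  obtain ⟨a, ha, rfl⟩ := hx
  exact ⟨-a, icosians.neg_mem ha, (neg_mul _ _).symm⟩

theorem leftIdeal_mul {c x : ℍ[ℝ]} (hc : c ∈ icosians) (hx : x ∈ leftIdeal q) :
    c * x ∈ leftIdeal q := by
  obtain ⟨a, ha, rfl⟩ := hx
  exact ⟨c * a, icosians.mul_mem hc ha, (mul_assoc _ _ _).symm⟩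

theorem leftIdeal_zero : (0 : ℍ[ℝ]) ∈ leftIdeal q := ⟨0, icosians.zero_mem, (zero_mul _).symm⟩

end Ideal

section Lat

variable {x y : Fin 3 → ℍ[ℝ]}

theorem lam_add (hx : x ∈ icoLeech) (hy : y ∈ icoLeech) : (fun t => x t + y t) ∈ icoLeech := by
  obtain ⟨h1, h2, h3, h4⟩ := hx
  obtain ⟨h5, h6, h7, h8⟩ := hy
  refine ⟨fun t => icosians.add_mem (h1 t) (h5 t), ?_, ?_, ?_⟩
  · have := leftIdeal_add h2 h6
    convert this using 1
    simp only
    abel
  · have := leftIdeal_add h3 h7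
    convert this using 1
    simp only
    abel
  · have := leftIdeal_add h4 h8
    convert this using 1
    simp only
    abel

theorem lam_smul {c : ℍ[ℝ]} (hc : c ∈ icosians) (hx : x ∈ icoLeech) : (fun t => c * x t) ∈ icoLeech := by
  obtain ⟨h1, h2, h3, h4⟩ := hx
  refine ⟨fun t => icosians.mul_mem hc (h1 t), ?_, ?_, ?_⟩
  · have := leftIdeal_mul hc h2
    rwa [mul_sub] at this
  · have := leftIdeal_mul hc h3
    rwa [mul_sub] at this
  · have := leftIdeal_mul hc h4
    rwa [mul_add, mul_add] at this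

theorem lam_neg (hx : x ∈ icoLeech) : (fun t => - x t) ∈ icoLeech := by
  have := lam_smul (icosians.neg_mem icosians.one_mem) hx
  simpa using this

/-- The decomposition, and the product. -/
theorem qip_ring_identity {A : Type*} [Ring A] (a u0 u1 ba bv0 bv1 h hb s bt : A)
    (hh : h * hb = 2) (hbh : hb * h = 2)
    (e1 : (a + u0 * h) + (a + u1 * h) + a = s * hb)
    (e2 : (ba + hb * bv0) + (ba + hb * bv1) + ba = h * bt) :
    (a + u0 * h) * (ba + hb * bv0) + (a + u1 * h) * (ba + hb * bv1) + a * ba =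
      2 * (s * bt - 2 * (a * ba) - (u0 + u1) * (bv0 + bv1)
        - (a * ba + a * (hb * (bv0 + bv1)) + (u0 + u1) * (h * ba)) + u0 * bv0 + u1 * bv1) := by
  have k1 : ((a + u0 * h) + (a + u1 * h) + a) * ((ba + hb * bv0) + (ba + hb * bv1) + ba) = 2 * (s * bt) := by
    rw [e1, e2]
    calc s * hb * (h * bt) = s * (hb * h) * bt := by noncomm_ring
      _ = 2 * (s * bt) := by rw [hbh]; noncomm_ring
  have t1 : u0 * h * (hb * bv0) = 2 * (u0 * bv0) := by
    calc u0 * h * (hb * bv0) = u0 * (h * hb) * bv0 := by noncomm_ring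
      _ = 2 * (u0 * bv0) := by rw [hh]; noncomm_ring
  have t2 : u1 * h * (hb * bv1) = 2 * (u1 * bv1) := by
    calc u1 * h * (hb * bv1) = u1 * (h * hb) * bv1 := by noncomm_ring
      _ = 2 * (u1 * bv1) := by rw [hh]; noncomm_ring
  have t3 : u0 * h * (hb * bv1) = 2 * (u0 * bv1) := by
    calc u0 * h * (hb * bv1) = u0 * (h * hb) * bv1 := by noncomm_ring
      _ = 2 * (u0 * bv1) := by rw [hh]; noncomm_ring
  have t4 : u1 * h * (hb * bv0) = 2 * (u1 * bv0) := by
    calc u1 * h * (hb * bv0) = u1 * (h * hb) * bv0 := by noncomm_ring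
      _ = 2 * (u1 * bv0) := by rw [hh]; noncomm_ring
  have k2 : ((a + u0 * h) + (a + u1 * h) + a) * ((ba + hb * bv0) + (ba + hb * bv1) + ba) =
      9 * (a * ba) + 3 * (a * (hb * bv0)) + 3 * (a * (hb * bv1)) + 3 * (u0 * h * ba) + 3 * (u1 * h * ba)
        + (u0 * h * (hb * bv0)) + (u0 * h * (hb * bv1)) + (u1 * h * (hb * bv0)) + (u1 * h * (hb * bv1)) := by
    noncomm_ring
  rw [t1, t2, t3, t4, k1] at k2
  have k3 : (a + u0 * h) * (ba + hb * bv0) + (a + u1 * h) * (ba + hb * bv1) + a * ba =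
      3 * (a * ba) + a * (hb * bv0) + a * (hb * bv1) + u0 * h * ba + u1 * h * ba
        + u0 * h * (hb * bv0) + u1 * h * (hb * bv1) := by
    noncomm_ring
  rw [k3, t1, t2]
  have k4 : 2 * (s * bt - 2 * (a * ba) - (u0 + u1) * (bv0 + bv1)
        - (a * ba + a * (hb * (bv0 + bv1)) + (u0 + u1) * (h * ba)) + u0 * bv0 + u1 * bv1) =
      2 * (s * bt) - 4 * (a * ba) - 2 * (u0 * bv0) - 2 * (u0 * bv1) - 2 * (u1 * bv0) - 2 * (u1 * bv1)
        - 2 * (a * ba) - 2 * (a * (hb * bv0)) - 2 * (a * (hb * bv1)) - 2 * (u0 * h * ba) - 2 * (u1 * h * ba)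
        + 2 * (u0 * bv0) + 2 * (u1 * bv1) := by
    noncomm_ring
  rw [k4, k2]
  noncomm_ring

theorem qip_apply (x y : Fin 3 → ℍ[ℝ]) :
    qip x y = x 0 * star (y 0) + x 1 * star (y 1) + x 2 * star (y 2) := by
  simp [qip, Fin.sum_univ_three]

/-- Hermitian products of lattice vectors are in `2 I`. -/
theorem qip_mem (hx : x ∈ icoLeech) (hy : y ∈ icoLeech) : ∃ c ∈ icosians, qip x y = 2 * c := by
  obtain ⟨h1, ⟨α, hα, e1⟩, ⟨β, hβ, e2⟩, ⟨s, hs, e3⟩⟩ := hx
  obtain ⟨h5, ⟨γ, hγ, e5⟩, ⟨δ, hδ, e6⟩, ⟨t, ht, e7⟩⟩ := hy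
  have hx1 : x 1 = x 2 + β * icoH := by rw [← e2]; abel
  have hx0 : x 0 = x 2 + (α + β) * icoH := by rw [add_mul, ← e1, ← e2]; abel
  have hy1 : y 1 = y 2 + δ * icoH := by rw [← e6]; abel
  have hy0 : y 0 = y 2 + (γ + δ) * icoH := by rw [add_mul, ← e5, ← e6]; abel
  have hs1 : star (y 0) = star (y 2) + star icoH * star (γ + δ) := by
    rw [hy0, star_add, star_mul]
  have hs2 : star (y 1) = star (y 2) + star icoH * star δ := by
    rw [hy1, star_add, star_mul]
  have e3' : (x 2 + (α + β) * icoH) + (x 2 + β * icoH) + x 2 = s * star icoH := by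
    rw [← hx0, ← hx1]; exact e3
  have e7' : (star (y 2) + star icoH * star (γ + δ)) + (star (y 2) + star icoH * star δ) + star (y 2)
      = icoH * star t := by
    have : star (y 0 + y 1 + y 2) = star (t * star icoH) := by rw [e7]
    rw [star_add, star_add, star_mul, star_star] at this
    rw [← hs1, ← hs2]
    exact this
  have key := qip_ring_identity (x 2) (α + β) β (star (y 2)) (star (γ + δ)) (star δ) icoH (star icoH) s (star t)
    h_hb hb_h e3' e7'
  have m1 := h1 2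
  have m2 := Q8.star_mem (h5 2)
  have m3 : α + β ∈ icosians := icosians.add_mem hα hβ
  have m4 := Q8.star_mem (icosians.add_mem hγ hδ)
  have m5 := Q8.star_mem hδ
  have m6 := Q8.star_mem ht
  have hh := h_mem
  have hb := hb_mem
  have ht2 := two_mem
  rw [qip_apply, hx0, hx1, hs1, hs2]
  refine ⟨_, ?_, key⟩
  · refine icosians.add_mem (icosians.add_mem (icosians.sub_mem (icosians.sub_mem (icosians.sub_mem
      (icosians.mul_mem hs m6) (icosians.mul_mem ht2 (icosians.mul_mem m1 m2)))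
      (icosians.mul_mem (icosians.add_mem m3 hβ) (icosians.add_mem m4 m5)))
      (icosians.add_mem (icosians.add_mem (icosians.mul_mem m1 m2) (icosians.mul_mem m1
        (icosians.mul_mem hb (icosians.add_mem m4 m5))))
        (icosians.mul_mem (icosians.add_mem m3 hβ) (icosians.mul_mem hh m2))))
      (icosians.mul_mem m3 m4)) (icosians.mul_mem hβ m5)

theorem two_mul_eq_smul (q : ℍ[ℝ]) : (2 : ℍ[ℝ]) * q = (2 : ℝ) • q := by rw [two_mul, two_smul]

theorem mul_two_eq_smul (q : ℍ[ℝ]) : q * (2 : ℍ[ℝ]) = (2 : ℝ) • q := by rw [mul_two, two_smul]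

theorem mul_four_eq_smul (q : ℍ[ℝ]) : q * (4 : ℍ[ℝ]) = (4 : ℝ) • q := by
  have e : (4 : ℍ[ℝ]) = 2 + 2 := by norm_num
  rw [e, mul_add, mul_two_eq_smul, ← add_smul]
  norm_num

theorem four_mul_eq_smul (q : ℍ[ℝ]) : (4 : ℍ[ℝ]) * q = (4 : ℝ) • q := by
  have e : (4 : ℍ[ℝ]) = 2 + 2 := by norm_num
  rw [e, add_mul, two_mul_eq_smul, ← add_smul]
  norm_num

theorem half_smul_two_mul (q : ℍ[ℝ]) : (1 / 2 : ℝ) • ((2 : ℍ[ℝ]) * q) = q := by
  rw [two_mul_eq_smul, smul_smul]; norm_num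

theorem two_mul_half_smul (q : ℍ[ℝ]) : (2 : ℍ[ℝ]) * ((1 / 2 : ℝ) • q) = q := by
  rw [two_mul_eq_smul, smul_smul]; norm_num

/-- The scalar of the reflection is an icosian. -/
theorem half_qip_mem (hx : x ∈ icoLeech) (hy : y ∈ icoLeech) : (1 / 2 : ℝ) • qip x y ∈ icosians := by
  obtain ⟨c, hc, e⟩ := qip_mem hx hy
  rwa [e, half_smul_two_mul]

theorem qip_add_left (x y r : Fin 3 → ℍ[ℝ]) : qip (fun t => x t + y t) r = qip x r + qip y r := by
  simp only [qip_apply]; noncomm_ring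

theorem qip_smul_left (c : ℍ[ℝ]) (x r : Fin 3 → ℍ[ℝ]) : qip (fun t => c * x t) r = c * qip x r := by
  simp only [qip_apply]; noncomm_ring

theorem qip_star (x y : Fin 3 → ℍ[ℝ]) : star (qip x y) = qip y x := by
  simp only [qip_apply, star_add, star_mul, star_star]

theorem qip_add_right (x y r : Fin 3 → ℍ[ℝ]) : qip r (fun t => x t + y t) = qip r x + qip r y := by
  rw [← qip_star, qip_add_left, star_add, qip_star, qip_star]

theorem qip_smul_right (c : ℍ[ℝ]) (x r : Fin 3 → ℍ[ℝ]) : qip r (fun t => c * x t) = qip r x * star c := by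
  rw [← qip_star, qip_smul_left, star_mul, qip_star]

theorem qrefl_apply (r x : Fin 3 → ℍ[ℝ]) (t : Fin 3) : qrefl r x t = x t - ((1 / 2 : ℝ) • qip x r) * r t := rfl

/-- The reflection of a lattice vector in a lattice vector. -/
theorem qrefl_mem {r : Fin 3 → ℍ[ℝ]} (hr : r ∈ icoLeech) (hx : x ∈ icoLeech) : qrefl r x ∈ icoLeech := by
  have h1 := lam_smul (icosians.neg_mem (half_qip_mem hx hr)) hr
  have h2 := lam_add hx h1
  convert h2 using 1
  funext t
  rw [qrefl_apply, neg_mul, sub_eq_add_neg]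
  
/-- The product with a reflected vector. -/
theorem qip_qrefl (r x : Fin 3 → ℍ[ℝ]) (hr : qip r r = 4) : qip (qrefl r x) r = - qip x r := by
  have e : qrefl r x = fun t => x t + (- ((1 / 2 : ℝ) • qip x r)) * r t := by
    funext t
    rw [qrefl_apply, neg_mul, sub_eq_add_neg]
  rw [e, qip_add_left, qip_smul_left, hr]
  rw [neg_mul, smul_mul_assoc, mul_four_eq_smul, smul_smul]
  norm_num
  rw [two_smul]
  abel

/-- The double reflection. -/
theorem qrefl_qrefl (r x : Fin 3 → ℍ[ℝ]) (hr : qip r r = 4) : qrefl r (qrefl r x) = x := by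
  funext t
  rw [qrefl_apply, qip_qrefl r x hr, qrefl_apply, smul_neg, neg_mul]
  abel

/-- Reflections are isometries. -/
theorem qip_qrefl_qrefl (r x y : Fin 3 → ℍ[ℝ]) (hr : qip r r = 4) :
    qip (qrefl r x) (qrefl r y) = qip x y := by
  have ex : qrefl r x = fun t => x t + (- ((1 / 2 : ℝ) • qip x r)) * r t := by
    funext t
    rw [qrefl_apply, neg_mul, sub_eq_add_neg]
  have ey : qrefl r y = fun t => y t + (- ((1 / 2 : ℝ) • qip y r)) * r t := by
    funext t
    rw [qrefl_apply, neg_mul, sub_eq_add_neg]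
  have hr' : ∀ q : ℍ[ℝ], (4 : ℍ[ℝ]) * q = q * 4 := fun q => (Nat.cast_commute 4 q).eq
  rw [ex, ey, qip_add_left, qip_add_right, qip_add_right, qip_smul_left, qip_smul_left, qip_smul_right,
    qip_smul_right, hr, ← qip_star y r]
  have ha := two_mul_half_smul (qip x r)
  have hb := two_mul_half_smul (qip y r)
  generalize (1 / 2 : ℝ) • qip x r = c at ha ⊢
  generalize (1 / 2 : ℝ) • qip y r = d at hb ⊢
  rw [← ha, ← hb, star_neg, two_mul d, star_add, ← two_mul]
  noncomm_ring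

end Lat

/-- The lattice, as a type. -/
abbrev Lam : Type := ↥icoLeech

/-- Sum of lattice vectors. -/
def addL (x y : Lam) : Lam := ⟨fun t => x.1 t + y.1 t, lam_add x.2 y.2⟩

/-- Left multiple of a lattice vector. -/
def smulL (c : ℍ[ℝ]) (hc : c ∈ icosians) (x : Lam) : Lam := ⟨fun t => c * x.1 t, lam_smul hc x.2⟩

/-- The additive, left `I`-linear isometries of the lattice. -/
def linG : Subgroup (Equiv.Perm Lam) where
  carrier := {g | (∀ x y, g (addL x y) = addL (g x) (g y)) ∧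
    (∀ c hc x, g (smulL c hc x) = smulL c hc (g x)) ∧ ∀ x y, qip (g x).1 (g y).1 = qip x.1 y.1}
  mul_mem' := by
    rintro g h ⟨g1, g2, g3⟩ ⟨h1, h2, h3⟩
    refine ⟨fun x y => ?_, fun c hc x => ?_, fun x y => ?_⟩
    · simp only [Equiv.Perm.mul_apply]
      rw [h1, g1]
    · simp only [Equiv.Perm.mul_apply]
      rw [h2, g2]
    · simp only [Equiv.Perm.mul_apply]
      rw [g3, h3]
  one_mem' := ⟨fun _ _ => rfl, fun _ _ _ => rfl, fun _ _ => rfl⟩
  inv_mem' := by
    rintro g ⟨g1, g2, g3⟩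
    refine ⟨fun x y => ?_, fun c hc x => ?_, fun x y => ?_⟩
    · apply g.injective
      rw [g1]
      simp
    · apply g.injective
      rw [g2]
      simp
    · rw [← g3]
      simp

theorem linG_add {g : Equiv.Perm Lam} (hg : g ∈ linG) (x y : Lam) : g (addL x y) = addL (g x) (g y) := hg.1 x y

theorem linG_smul {g : Equiv.Perm Lam} (hg : g ∈ linG) (c : ℍ[ℝ]) (hc : c ∈ icosians) (x : Lam) :
    g (smulL c hc x) = smulL c hc (g x) := hg.2.1 c hc x

theorem linG_qip {g : Equiv.Perm Lam} (hg : g ∈ linG) (x y : Lam) : qip (g x).1 (g y).1 = qip x.1 y.1 :=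
  hg.2.2 x y

/-- The reflection in a lattice vector of norm `4`, as a permutation. -/
def rf (r : Lam) (hr : qip r.1 r.1 = 4) : Equiv.Perm Lam where
  toFun x := ⟨qrefl r.1 x.1, qrefl_mem r.2 x.2⟩
  invFun x := ⟨qrefl r.1 x.1, qrefl_mem r.2 x.2⟩
  left_inv x := Subtype.ext (qrefl_qrefl r.1 x.1 hr)
  right_inv x := Subtype.ext (qrefl_qrefl r.1 x.1 hr)

theorem rf_coe (r : Lam) (hr : qip r.1 r.1 = 4) (x : Lam) : (rf r hr x).1 = qrefl r.1 x.1 := rfl

theorem rf_inv (r : Lam) (hr : qip r.1 r.1 = 4) : (rf r hr)⁻¹ = rf r hr := by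
  exact Equiv.ext fun x => rfl

theorem isIcoReflection_iff {f : Equiv.Perm Lam} :
    IsIcoReflection f ↔ ∃ (r : Lam) (hr : qip r.1 r.1 = 4), f = rf r hr := by
  constructor
  · rintro ⟨r, hr, h⟩
    exact ⟨r, hr, Equiv.ext fun x => Subtype.ext (h x)⟩
  · rintro ⟨r, hr, rfl⟩
    exact ⟨r, hr, fun x => rfl⟩

/-- The vector `x - c r`. -/
theorem rf_eq_add (r : Lam) (hr : qip r.1 r.1 = 4) (x : Lam) :
    rf r hr x = addL x (smulL _ (icosians.neg_mem (half_qip_mem x.2 r.2)) r) := by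
  apply Subtype.ext
  funext t
  show qrefl r.1 x.1 t = x.1 t + (- ((1 / 2 : ℝ) • qip x.1 r.1)) * r.1 t
  rw [qrefl_apply, neg_mul, sub_eq_add_neg]

theorem rf_mem_linG (r : Lam) (hr : qip r.1 r.1 = 4) : rf r hr ∈ linG := by
  refine ⟨fun x y => ?_, fun c hc x => ?_, fun x y => qip_qrefl_qrefl _ _ _ hr⟩
  · apply Subtype.ext
    funext t
    show qrefl r.1 (fun t => x.1 t + y.1 t) t = qrefl r.1 x.1 t + qrefl r.1 y.1 t
    simp only [qrefl_apply, qip_add_left, smul_add, add_mul]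
    abel
  · apply Subtype.ext
    funext t
    show qrefl r.1 (fun t => c * x.1 t) t = c * qrefl r.1 x.1 t
    simp only [qrefl_apply, qip_smul_left, mul_sub, mul_smul_comm, smul_mul_assoc, mul_assoc]

theorem twoJ2_le_linG : twoJ2 ≤ linG := by
  rw [twoJ2, Subgroup.closure_le]
  intro f hf
  obtain ⟨r, hr, rfl⟩ := isIcoReflection_iff.1 hf
  exact rf_mem_linG r hr

/-- Images of the vectors of norm `4`. -/
theorem linG_norm {g : Equiv.Perm Lam} (hg : g ∈ linG) {r : Lam} (hr : qip r.1 r.1 = 4) :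
    qip (g r).1 (g r).1 = 4 := by
  rw [linG_qip hg, hr]

/-- Conjugates of reflections. -/
theorem conj_rf {g : Equiv.Perm Lam} (hg : g ∈ linG) (r : Lam) (hr : qip r.1 r.1 = 4) :
    g * rf r hr * g⁻¹ = rf (g r) (linG_norm hg hr) := by
  ext1 x
  simp only [Equiv.Perm.mul_apply]
  rw [rf_eq_add, linG_add hg, linG_smul hg]
  apply Subtype.ext
  funext t
  show (g (g⁻¹ x)).1 t + (- ((1 / 2 : ℝ) • qip (g⁻¹ x).1 r.1)) * (g r).1 t = qrefl (g r).1 x.1 t
  rw [qrefl_apply, neg_mul, sub_eq_add_neg]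
  have : qip (g⁻¹ x).1 r.1 = qip x.1 (g r).1 := by
    rw [← linG_qip hg (g⁻¹ x) r]
    simp
  rw [this]
  simp

section RKey

/-- The reflection only depends on the products `r̄ᵤ rₜ`. -/
theorem qrefl_eq_sum (r x : Fin 3 → ℍ[ℝ]) (t : Fin 3) :
    qrefl r x t = x t - (1 / 2 : ℝ) • (x 0 * (star (r 0) * r t) + x 1 * (star (r 1) * r t) + x 2 * (star (r 2) * r t)) := by
  rw [qrefl_apply, qip_apply, smul_mul_assoc]
  congr 2
  noncomm_ring

/-- Reflections with the same products are equal. -/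
theorem rf_eq_of_key {r s : Lam} (hr : qip r.1 r.1 = 4) (hs : qip s.1 s.1 = 4)
    (h : ∀ u t, star (r.1 u) * r.1 t = star (s.1 u) * s.1 t) : rf r hr = rf s hs := by
  ext1 x
  apply Subtype.ext
  funext t
  show qrefl r.1 x.1 t = qrefl s.1 x.1 t
  rw [qrefl_eq_sum, qrefl_eq_sum, h, h, h]

/-- Equal reflections have the same products. -/
theorem key_of_rf_eq {r s : Lam} (hr : qip r.1 r.1 = 4) (hs : qip s.1 s.1 = 4)
    (h : rf r hr = rf s hs) : ∀ u t, star (r.1 u) * r.1 t = star (s.1 u) * s.1 t := by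
  have h1 : rf r hr r = rf s hs r := by rw [h]
  have h2 : ∀ t, qrefl r.1 r.1 t = qrefl s.1 r.1 t := fun t => by
    have := congrArg Subtype.val h1
    exact congrFun this t
  set d : ℍ[ℝ] := (1 / 4 : ℝ) • qip r.1 s.1 with hd
  have h3 : ∀ t, r.1 t = d * s.1 t := by
    intro t
    have h4 := h2 t
    rw [qrefl_apply, qrefl_apply, hr] at h4
    have h5 : ((1 / 2 : ℝ) • (4 : ℍ[ℝ])) * r.1 t = (2 : ℝ) • r.1 t := by
      rw [smul_mul_assoc, four_mul_eq_smul, smul_smul]
      norm_num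
    have h6 : ((1 / 2 : ℝ) • qip r.1 s.1) * s.1 t = (2 : ℝ) • (d * s.1 t) := by
      rw [hd, smul_mul_assoc, smul_mul_assoc, smul_smul]
      norm_num
    rw [h5, h6] at h4
    have h7 := sub_right_injective h4
    exact smul_right_injective _ (by norm_num : (2 : ℝ) ≠ 0) h7
  have h8 : d * star d = 1 := by
    have hr' : r.1 = fun t => d * s.1 t := funext h3
    have h9 : qip (fun t => d * s.1 t) (fun t => d * s.1 t) = 4 := by
      rw [← hr']; exact hr
    rw [qip_smul_left, qip_smul_right, hs, ← mul_assoc, mul_four_eq_smul, smul_mul_assoc] at h9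
    have h10 : (4 : ℝ) • (d * star d) = (4 : ℝ) • (1 : ℍ[ℝ]) := by
      rw [h9, ← mul_four_eq_smul, one_mul]
    exact smul_right_injective _ (by norm_num : (4 : ℝ) ≠ 0) h10
  have h11 : star d * d = 1 := by
    rw [Quaternion.star_mul_self, ← Quaternion.self_mul_star, h8]
  intro u t
  rw [h3 u, h3 t, star_mul]
  calc star (s.1 u) * star d * (d * s.1 t) = star (s.1 u) * (star d * d) * s.1 t := by noncomm_ring
    _ = _ := by rw [h11, mul_one]

end RKey

end Cfsg.Agent.Lib.J2Ico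

end
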