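import Cfsg.Agent.Lib.J2Ico.Lines0

/-!
# The minimal vectors and the reflections
-/

set_option autoImplicit false
set_option linter.unusedSectionVars false
set_option linter.constructorNameAsVariable false

noncomputable section

namespace Cfsg.Agent.Lib.J2Ico

open Cfsg.Spor Quaternion

namespace Q8

theorem star_E_unit {u : Q8} (hu : u ∈ units) : star (E u) * E u = 1 := by
  obtain ⟨h1, h2⟩ := units_ok u hu
  rw [E_conj, E_mulI (inI_conj h1) h1, h2, E_one]

/-- The left multiple of a vector. -/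
def vecMul (c : ℍ[ℝ]) (r : Fin 3 → ℍ[ℝ]) : Fin 3 → ℍ[ℝ] := fun t => c * r t

theorem qip_vecMul_self {c : ℍ[ℝ]} {r : Fin 3 → ℍ[ℝ]} (hc : star c * c = 1) (hr : qip r r = 4) :
    qip (vecMul c r) (vecMul c r) = 4 := by
  have h1 : c * star c = 1 := by
    rw [Quaternion.self_mul_star, ← Quaternion.star_mul_self, hc]
  show qip (fun t => c * r t) (fun t => c * r t) = 4
  rw [qip_smul_left, qip_smul_right, hr, ← mul_assoc, mul_four_eq_smul, smul_mul_assoc, h1]
  rw [← mul_four_eq_smul, one_mul]

theorem key_vecMul {c : ℍ[ℝ]} (r : Fin 3 → ℍ[ℝ]) (hc : star c * c = 1) (u t : Fin 3) :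
    star (vecMul c r u) * vecMul c r t = star (r u) * r t := by
  show star (c * r u) * (c * r t) = _
  rw [star_mul]
  calc star (r u) * star c * (c * r t) = star (r u) * (star c * c) * r t := by noncomm_ring
    _ = _ := by rw [hc, mul_one]

theorem rep_qip {v : V3} (hv : v ∈ reps) : qip (evv v) (evv v) = 4 :=
  (qip_self_iff v).2 (reps_ok v hv).2

theorem rep_mem_lam {v : V3} (hv : v ∈ reps) : evv v ∈ icoLeech :=
  evv_mem_of_inLam (reps_ok v hv).1

theorem rep_allI {v : V3} (hv : v ∈ reps) : allI v := (reps_ok v hv).1.1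

theorem exists_ne_zero {v : V3} (hv : v ∈ reps) : ∃ t, evv v t ≠ 0 := by
  by_contra h
  push Not at h
  have := rep_qip hv
  rw [qip_apply, h 0, h 1, h 2] at this
  simp only [zero_mul, add_zero] at this
  have h4 := congrArg QuaternionAlgebra.re this
  rw [four_eq] at h4
  norm_num at h4

/-- The set of images. -/
def imgSet : Set (Fin 3 → ℍ[ℝ]) :=
  (fun p : Q8 × V3 => vecMul (E p.1) (evv p.2)) '' ((units.toFinset ×ˢ reps.toFinset : Finset (Q8 × V3)) : Set (Q8 × V3))

theorem reps_nodup : reps.Nodup := List.Nodup.of_map _ rk_nodup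

theorem rk_inj {v w : V3} (hv : v ∈ reps) (hw : w ∈ reps) (h : rkL v = rkL w) : v = w :=
  List.inj_on_of_nodup_map rk_nodup hv hw h

theorem imgSet_ncard : imgSet.ncard = 37800 := by
  rw [imgSet, Set.InjOn.ncard_image, Set.ncard_coe_finset, Finset.card_product,
    List.toFinset_card_of_nodup units_nodup, List.toFinset_card_of_nodup reps_nodup, units_length, reps_length]
  rintro ⟨u, v⟩ hp ⟨u', v'⟩ hp' h
  simp only [Finset.coe_product, Set.mem_prod, Finset.mem_coe, List.mem_toFinset] at hp hp'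
  simp only at h
  have hv : v = v' := by
    apply rk_inj hp.2 hp'.2
    apply rk_of_key (rep_allI hp.2) (rep_allI hp'.2)
    intro s t
    rw [← key_vecMul (evv v) (star_E_unit hp.1) s t, ← key_vecMul (evv v') (star_E_unit hp'.1) s t, h]
  subst hv
  obtain ⟨t, ht⟩ := exists_ne_zero hp.2
  have h2 : E u * evv v t = E u' * evv v t := congrFun h t
  have h3 := E_inj (mul_right_cancel₀ ht h2)
  rw [h3]

theorem imgSet_subset : imgSet ⊆ minSet := by
  rintro _ ⟨⟨u, v⟩, hp, rfl⟩
  simp only [Finset.coe_product, Set.mem_prod, Finset.mem_coe, List.mem_toFinset] at hp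
  exact ⟨lam_smul (E_mem (units_ok u hp.1).1) (rep_mem_lam hp.2), qip_vecMul_self (star_E_unit hp.1) (rep_qip hp.2)⟩

theorem imgSet_eq : imgSet = minSet :=
  Set.eq_of_subset_of_ncard_le imgSet_subset (by rw [imgSet_ncard]; exact minSet_bound.2) minSet_bound.1

/-- The number of minimal vectors. -/
theorem minSet_ncard : minSet.ncard = 37800 := by rw [← imgSet_eq, imgSet_ncard]

/-- Every minimal vector is a unit multiple of a representative. -/
theorem exists_unit_rep {r : Fin 3 → ℍ[ℝ]} (hr : r ∈ minSet) : ∃ u ∈ units, ∃ v ∈ reps, r = vecMul (E u) (evv v) := by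
  rw [← imgSet_eq] at hr
  obtain ⟨⟨u, v⟩, hp, rfl⟩ := hr
  simp only [Finset.coe_product, Set.mem_prod, Finset.mem_coe, List.mem_toFinset] at hp
  exact ⟨u, hp.1, v, hp.2, rfl⟩

/-! ### Numbering the representatives -/

/-- The representative with a number. -/
def rep (j : ℕ) : V3 := reps.getD j (zero, zero, zero)

theorem rep_mem {j : ℕ} (hj : j < 315) : rep j ∈ reps := by
  have h : j < reps.length := by rw [reps_length]; exact hj
  rw [rep, List.getD_eq_getElem _ _ h]
  exact List.getElem_mem h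

theorem exists_rep_eq {v : V3} (hv : v ∈ reps) : ∃ j : Fin 315, rep j = v := by
  obtain ⟨i, hi, rfl⟩ := List.mem_iff_getElem.1 hv
  have hi' : i < 315 := by rw [← reps_length]; exact hi
  refine ⟨⟨i, hi'⟩, ?_⟩
  simp only [rep]
  rw [List.getD_eq_getElem _ _ hi]

/-- The representative as a vector of the lattice. -/
def lamV (j : Fin 315) : Lam := ⟨evv (rep j), rep_mem_lam (rep_mem j.2)⟩

theorem lamV_norm (j : Fin 315) : qip (lamV j).1 (lamV j).1 = 4 := rep_qip (rep_mem j.2)

/-- The numbered reflections. -/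
def refl (j : Fin 315) : Equiv.Perm Lam := rf (lamV j) (lamV_norm j)

theorem refl_isRefl (j : Fin 315) : IsIcoReflection (refl j) :=
  isIcoReflection_iff.2 ⟨_, _, rfl⟩

theorem refl_mem (j : Fin 315) : refl j ∈ twoJ2 := Subgroup.subset_closure (refl_isRefl j)

theorem exists_refl_eq (r : Lam) (hr : qip r.1 r.1 = 4) : ∃ j, rf r hr = refl j := by
  obtain ⟨u, hu, v, hv, e⟩ := exists_unit_rep (r := r.1) ⟨r.2, hr⟩
  obtain ⟨j, rfl⟩ := exists_rep_eq hv
  refine ⟨j, rf_eq_of_key hr _ ?_⟩
  intro s t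
  rw [e]
  exact key_vecMul _ (star_E_unit hu) s t

theorem rep_inj {i j : Fin 315} (h : rep i = rep j) : i = j := by
  have hi : (i : ℕ) < reps.length := by rw [reps_length]; exact i.2
  have hj : (j : ℕ) < reps.length := by rw [reps_length]; exact j.2
  simp only [rep] at h
  rw [List.getD_eq_getElem _ _ hi, List.getD_eq_getElem _ _ hj] at h
  exact Fin.ext ((List.getElem_inj reps_nodup).1 h)

theorem refl_injective : Function.Injective refl := by
  intro i j h
  have h1 := key_of_rf_eq (lamV_norm i) (lamV_norm j) h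
  have h2 := rk_of_key (rep_allI (rep_mem i.2)) (rep_allI (rep_mem j.2)) h1
  exact rep_inj (rk_inj (rep_mem i.2) (rep_mem j.2) h2)

theorem isRefl_iff {f : Equiv.Perm Lam} : IsIcoReflection f ↔ ∃ j, f = refl j := by
  constructor
  · intro hf
    obtain ⟨r, hr, rfl⟩ := isIcoReflection_iff.1 hf
    exact exists_refl_eq r hr
  · rintro ⟨j, rfl⟩
    exact refl_isRefl j

/-- The number of reflections. -/
theorem reflSet_ncard : {f : Equiv.Perm Lam | IsIcoReflection f}.ncard = 315 := by
  have : {f : Equiv.Perm Lam | IsIcoReflection f} = refl '' Set.univ := by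
    ext f
    simp only [Set.mem_ofPred_eq, Set.image_univ, Set.mem_range]
    rw [isRefl_iff]
    exact ⟨fun ⟨j, h⟩ => ⟨j, h.symm⟩, fun ⟨j, h⟩ => ⟨j, h.symm⟩⟩
  rw [this, Set.ncard_image_of_injective _ refl_injective, Set.ncard_univ, Nat.card_fin]

end Q8

end Cfsg.Agent.Lib.J2Ico

end
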