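import Cfsg.Agent.Lib.J2Ico.Data

/-!
# Kernel checks on the representatives of the lines
-/

set_option autoImplicit false

namespace Cfsg.Agent.Lib.J2Ico.Q8

/-- Norm condition in coordinates. -/
def isNorm4 (v : V3) : Prop :=
  pN v.1 + pN v.2.1 + pN v.2.2 = 16 ∧ rN v.1 + rN v.2.1 + rN v.2.2 = 0

instance : DecidablePred isNorm4 := fun v => by unfold isNorm4; infer_instance

theorem reps_ok : ∀ v ∈ reps, inLam v ∧ isNorm4 v := by decide +kernel

theorem units_ok : ∀ u ∈ units, inI u ∧ mulI (conj u) u = one := by decide +kernel

theorem units_nodup : units.Nodup := by decide +kernel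

theorem units_length : units.length = 120 := by decide +kernel

theorem reps_length : reps.length = 315 := by decide +kernel

theorem rk_nodup : (reps.map rkL).Nodup := by decide +kernel

end Cfsg.Agent.Lib.J2Ico.Q8
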