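import Cfsg.Agent.Lib.J2Ico.Group

/-!
# The Hall-Janko group as a permutation group of degree 315
-/

set_option autoImplicit false
set_option linter.unusedSectionVars false
set_option linter.constructorNameAsVariable false

noncomputable section

namespace Cfsg.Agent.Lib.J2Ico

open Cfsg.Spor Quaternion Cfsg.Agent.Lib.PermComp Cfsg.Agent.Lib.J2Ico.Cert

namespace Q8

/-- The action of `twoJ2` on the reflection numbers. -/
def rhoT : twoJ2 →* Equiv.Perm (Fin 315) := rho.comp (Subgroup.inclusion twoJ2_le_linG)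

theorem rhoT_apply (t : twoJ2) (j : Fin 315) : refl (rhoT t j) = t.1 * refl j * t.1⁻¹ :=
  refl_rho _ _

theorem rhoT_eq_iff (t : twoJ2) (j j' : Fin 315) : rhoT t j = j' ↔ t.1 * refl j * t.1⁻¹ = refl j' :=
  rho_eq_iff _ _ _

/-- The reflection as an element of `twoJ2`. -/
def reflT (j : Fin 315) : twoJ2 := ⟨refl j, refl_mem j⟩

theorem rhoT_reflT (j : Fin 315) : rhoT (reflT j) = rho (reflG j) := rfl

theorem Hg_le_range : Hg ≤ rhoT.range := by
  refine (Subgroup.closure_le _).2 ?_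
  rintro g ⟨c, hc, hg⟩
  obtain ⟨k, hk⟩ := exists_zip hc
  obtain ⟨k', -, h⟩ := rep_of_mem_zip hk
  rw [hg.unique h]
  exact ⟨reflT k', rfl⟩

theorem exists_conj_of_num (a : Fin 315) : ∃ t : twoJ2, rhoT t 281 = a ∧ rhoT t ∈ Hg := by
  obtain ⟨g, hg, hga⟩ := Hg_transitive a
  obtain ⟨t, rfl⟩ := Hg_le_range hg
  exact ⟨t, hga, hg⟩

theorem rhoT_281_mem : rhoT (reflT 281) ∈ Hg := by
  have hc : (genIdx.zip j2p_G_T).head? = some (281, j2p_G_T.head!) := by decide +kernel
  have hm : ((281 : ℕ), j2p_G_T.head!) ∈ genIdx.zip j2p_G_T := List.mem_of_head? hc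
  obtain ⟨k, hk, h⟩ := rep_of_mem_zip hm
  have hk' : k = 281 := Fin.ext hk
  subst hk'
  have hm2 : j2p_G_T.head! ∈ j2p_G_T := (List.of_mem_zip hm).2
  exact Core.H_of_rep hm2 h

theorem rhoT_reflT_mem (j : Fin 315) : rhoT (reflT j) ∈ Hg := by
  obtain ⟨t, ht, hmem⟩ := exists_conj_of_num j
  have h2 : reflT j = t * reflT 281 * t⁻¹ := by
    apply Subtype.ext
    exact ((rhoT_eq_iff t 281 j).1 ht).symm
  rw [h2, map_mul, map_mul, map_inv]
  exact mul_mem (mul_mem hmem rhoT_281_mem) (inv_mem hmem)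

theorem range_le_Hg (t : twoJ2) : rhoT t ∈ Hg := by
  obtain ⟨x, hx⟩ := t
  refine Subgroup.closure_induction (p := fun x hx => rhoT ⟨x, hx⟩ ∈ Hg) ?_ ?_ ?_ ?_ hx
  · intro f hf
    obtain ⟨j, rfl⟩ := isRefl_iff.1 hf
    exact rhoT_reflT_mem j
  · exact (map_one rhoT) ▸ one_mem _
  · intro a b ha hb h1 h2
    have : (⟨a * b, mul_mem ha hb⟩ : twoJ2) = ⟨a, ha⟩ * ⟨b, hb⟩ := rfl
    rw [this, map_mul]
    exact mul_mem h1 h2
  · intro a ha h1
    have : (⟨a⁻¹, inv_mem ha⟩ : twoJ2) = (⟨a, ha⟩ : twoJ2)⁻¹ := rfl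
    rw [this, map_inv]
    exact inv_mem h1

/-- The action of `twoJ2` onto the permutation group. -/
def rhoH : twoJ2 →* Hg := rhoT.codRestrict Hg range_le_Hg

theorem rhoH_coe (t : twoJ2) : (rhoH t : Equiv.Perm (Fin 315)) = rhoT t := rfl

theorem rhoH_surjective : Function.Surjective rhoH := by
  rintro ⟨g, hg⟩
  obtain ⟨t, rfl⟩ := Hg_le_range hg
  exact ⟨t, rfl⟩

/-- `-1` as an element of `twoJ2`. -/
def negT : twoJ2 := ⟨negL, negL_mem⟩

theorem negT_ne_one : negT ≠ 1 := by
  intro h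
  exact negL_ne_one (congrArg Subtype.val h)

theorem negT_central (t : twoJ2) : t * negT = negT * t :=
  Subtype.ext (negL_comm (twoJ2_le_linG t.2))

theorem negT_mem_center : negT ∈ Subgroup.center twoJ2 := by
  rw [Subgroup.mem_center_iff]
  exact fun t => negT_central t

theorem rhoH_negT : rhoH negT = 1 := by
  apply Subtype.ext
  ext1 j
  show rhoT negT j = j
  rw [rhoT_eq_iff]
  show negL * refl j * negL⁻¹ = refl j
  have h2 : refl j * negL = negL * refl j := negL_comm (rf_mem_linG (lamV j) (lamV_norm j))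
  rw [← h2, mul_inv_cancel_right]

theorem eq_of_rhoH_eq_one {t : twoJ2} (h : rhoH t = 1) : t = 1 ∨ t = negT := by
  have h1 : ∀ j, t.1 * refl j * t.1⁻¹ = refl j := by
    intro j
    have h2 : rhoT t j = j := by
      have h3 : (rhoH t : Equiv.Perm (Fin 315)) = 1 := by rw [h]; rfl
      rw [rhoH_coe] at h3
      rw [h3]; rfl
    exact (rhoT_eq_iff t j j).1 h2
  rcases eq_one_or_neg (twoJ2_le_linG t.2) h1 with h2 | h2
  · exact Or.inl (Subtype.ext h2)
  · exact Or.inr (Subtype.ext h2)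

theorem mem_ker_iff (t : twoJ2) : t ∈ rhoH.ker ↔ t = 1 ∨ t = negT := by
  rw [MonoidHom.mem_ker]
  constructor
  · exact eq_of_rhoH_eq_one
  · rintro (rfl | rfl)
    · exact map_one _
    · exact rhoH_negT

theorem Hg_not_comm : ∃ a b : Hg, a * b ≠ b * a := by
  by_contra hc
  push Not at hc
  let _ : CommGroup Hg := { (inferInstance : Group Hg) with mul_comm := hc }
  have h := IsSimpleGroup.prime_card (α := Hg)
  rw [card_Hg] at h
  norm_num at h

theorem center_Hg : Subgroup.center Hg = ⊥ := by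
  rcases IsSimpleGroup.eq_bot_or_eq_top_of_normal (Subgroup.center Hg) inferInstance with h | h
  · exact h
  · exfalso
    obtain ⟨a, b, hab⟩ := Hg_not_comm
    apply hab
    have : a ∈ Subgroup.center Hg := h ▸ Subgroup.mem_top a
    exact (Subgroup.mem_center_iff.1 this b).symm

theorem center_eq_ker : Subgroup.center twoJ2 = rhoH.ker := by
  apply le_antisymm
  · intro z hz
    rw [MonoidHom.mem_ker]
    have h1 : rhoH z ∈ Subgroup.center Hg := by
      rw [Subgroup.mem_center_iff]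
      intro a
      obtain ⟨t, rfl⟩ := rhoH_surjective a
      rw [← map_mul, ← map_mul, (Subgroup.mem_center_iff.1 hz t)]
    rw [center_Hg] at h1
    exact h1
  · intro t ht
    rcases (mem_ker_iff t).1 ht with rfl | rfl
    · exact one_mem _
    · exact negT_mem_center

/-- The Hall-Janko group as the permutation group of degree 315. -/
def j2Equiv : J2 ≃* Hg :=
  (QuotientGroup.quotientMulEquivOfEq center_eq_ker).trans (QuotientGroup.quotientKerEquivOfSurjective rhoH rhoH_surjective)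

theorem j2Equiv_mk (t : twoJ2) : j2Equiv (QuotientGroup.mk t) = rhoH t := rfl

theorem card_J2 : Nat.card J2 = 604800 := by
  rw [Nat.card_congr j2Equiv.toEquiv, card_Hg]

theorem card_center : Nat.card (Subgroup.center twoJ2) = 2 := by
  have h1 : ((Subgroup.center twoJ2 : Subgroup twoJ2) : Set twoJ2) = {1, negT} := by
    ext t
    rw [center_eq_ker]
    exact mem_ker_iff t
  have h2 : Nat.card (Subgroup.center twoJ2) = Set.ncard ((Subgroup.center twoJ2 : Subgroup twoJ2) : Set twoJ2) :=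
    (Nat.card_coe_set_eq _)
  rw [h2, h1, Set.ncard_pair negT_ne_one.symm]

theorem card_twoJ2 : Nat.card twoJ2 = 1209600 := by
  have h := Subgroup.card_mul_index (Subgroup.center twoJ2)
  rw [card_center] at h
  have h2 : (Subgroup.center twoJ2).index = Nat.card J2 := rfl
  rw [h2, card_J2] at h
  omega

/-- The reflections are conjugate under `twoJ2`. -/
theorem refl_conj (j j' : Fin 315) : ∃ t : twoJ2, t.1 * refl j * t.1⁻¹ = refl j' := by
  obtain ⟨t, ht, -⟩ := exists_conj_of_num j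
  obtain ⟨t', ht', -⟩ := exists_conj_of_num j'
  refine ⟨t' * t⁻¹, ?_⟩
  have h1 := (rhoT_eq_iff t 281 j).1 ht
  have h2 := (rhoT_eq_iff t' 281 j').1 ht'
  rw [← h2, ← h1]
  show t'.1 * t.1⁻¹ * (t.1 * refl 281 * t.1⁻¹) * (t'.1 * t.1⁻¹)⁻¹ = _
  group

end Q8

end Cfsg.Agent.Lib.J2Ico

end
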