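import Cfsg.Agent.Lib.J2Ico.Lines

/-!
# The action on the 315 reflections, and its kernel
-/

set_option autoImplicit false
set_option linter.unusedSectionVars false
set_option linter.constructorNameAsVariable false

noncomputable section

namespace Cfsg.Agent.Lib.J2Ico

open Cfsg.Spor Quaternion

namespace Q8

theorem exists_conj_refl {g : Equiv.Perm Lam} (hg : g ∈ linG) (j : Fin 315) : ∃ j', refl j' = g * refl j * g⁻¹ := by
  rw [refl, conj_rf hg]
  obtain ⟨j', h⟩ := exists_refl_eq (g (lamV j)) (linG_norm hg (lamV_norm j))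
  exact ⟨j', h.symm⟩

/-- The action on the numbers of the reflections. -/
def actFn (g : linG) (j : Fin 315) : Fin 315 := (exists_conj_refl g.2 j).choose

theorem refl_actFn (g : linG) (j : Fin 315) : refl (actFn g j) = g.1 * refl j * g.1⁻¹ :=
  (exists_conj_refl g.2 j).choose_spec

/-- The action on the numbers of the reflections, as a homomorphism. -/
def rho : linG →* Equiv.Perm (Fin 315) where
  toFun g :=
    { toFun := actFn g
      invFun := actFn g⁻¹
      left_inv := fun j => refl_injective (by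
        rw [refl_actFn, refl_actFn]
        simp only [Subgroup.coe_inv]
        group)
      right_inv := fun j => refl_injective (by
        rw [refl_actFn, refl_actFn]
        simp only [Subgroup.coe_inv]
        group) }
  map_one' := by
    ext j
    have : actFn 1 j = j := refl_injective (by rw [refl_actFn]; simp)
    simp [this]
  map_mul' g h := by
    ext j
    have : actFn (g * h) j = actFn g (actFn h j) := refl_injective (by
      rw [refl_actFn, refl_actFn, refl_actFn]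
      simp only [Subgroup.coe_mul, mul_inv_rev]
      group)
    simp [this]

theorem refl_rho (g : linG) (j : Fin 315) : refl (rho g j) = g.1 * refl j * g.1⁻¹ := refl_actFn g j

theorem rho_eq_iff (g : linG) (j j' : Fin 315) : rho g j = j' ↔ g.1 * refl j * g.1⁻¹ = refl j' := by
  rw [← refl_rho]
  exact ⟨fun h => by rw [h], fun h => refl_injective h⟩

/-! ### The kernel -/

/-- The negative. -/
def negL : Equiv.Perm Lam where
  toFun x := ⟨fun t => - x.1 t, lam_neg x.2⟩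
  invFun x := ⟨fun t => - x.1 t, lam_neg x.2⟩
  left_inv x := by
    apply Subtype.ext
    funext t
    simp
  right_inv x := by
    apply Subtype.ext
    funext t
    simp

theorem negL_coe (x : Lam) (t : Fin 3) : (negL x).1 t = - x.1 t := rfl

theorem negL_ne_one : negL ≠ 1 := by
  intro h
  obtain ⟨t, ht⟩ := exists_ne_zero (rep_mem (show 0 < 315 by norm_num))
  have h1 : (negL (lamV 0)).1 t = (lamV 0).1 t := by
    rw [h]
    rfl
  rw [negL_coe] at h1
  have h2 : (lamV 0).1 t = evv (rep 0) t := rfl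
  rw [h2] at h1
  have h3 : (2 : ℝ) • evv (rep 0) t = 0 := by
    rw [two_smul]
    nth_rewrite 1 [← h1]
    simp
  exact ht ((smul_eq_zero.1 h3).resolve_left (by norm_num))

theorem linG_neg {g : Equiv.Perm Lam} (hg : g ∈ linG) (x : Lam) : g (negL x) = negL (g x) := by
  have h1 : negL x = smulL (-1) (icosians.neg_mem icosians.one_mem) x := by
    apply Subtype.ext
    funext t
    simp [negL_coe, smulL]
  rw [h1, linG_smul hg]
  apply Subtype.ext
  funext t
  simp [negL_coe, smulL]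

theorem negL_comm {g : Equiv.Perm Lam} (hg : g ∈ linG) : g * negL = negL * g := by
  ext1 x
  exact linG_neg hg x

/-! ### The special vectors -/

/-- `(2, 0, 0)`. -/
def vE0 : V3 := (⟨4, 0, 0, 0, 0, 0, 0, 0⟩, zero, zero)
/-- `(0, 2, 0)`. -/
def vE1 : V3 := (zero, ⟨4, 0, 0, 0, 0, 0, 0, 0⟩, zero)
/-- `(0, 0, 2)`. -/
def vE2 : V3 := (zero, zero, ⟨4, 0, 0, 0, 0, 0, 0, 0⟩)
/-- `(-1 - i, 1 + i, 0)`. -/
def vA : V3 := (⟨-2, 0, -2, 0, 0, 0, 0, 0⟩, ⟨2, 0, 2, 0, 0, 0, 0, 0⟩, zero)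
/-- `(-1 - i, 0, 1 + i)`. -/
def vB : V3 := (⟨-2, 0, -2, 0, 0, 0, 0, 0⟩, zero, ⟨2, 0, 2, 0, 0, 0, 0, 0⟩)
/-- `(-1 - i, -1 + i, 0)`. -/
def vC : V3 := (⟨-2, 0, -2, 0, 0, 0, 0, 0⟩, ⟨-2, 0, 2, 0, 0, 0, 0, 0⟩, zero)
/-- `(-1 - i, j + k, 0)`. -/
def vD : V3 := (⟨-2, 0, -2, 0, 0, 0, 0, 0⟩, ⟨0, 0, 0, 0, 2, 0, 2, 0⟩, zero)

theorem special_ok : (inLam vE0 ∧ isNorm4 vE0) ∧ (inLam vE1 ∧ isNorm4 vE1) ∧ (inLam vE2 ∧ isNorm4 vE2) ∧
    (inLam vA ∧ isNorm4 vA) ∧ (inLam vB ∧ isNorm4 vB) ∧ (inLam vC ∧ isNorm4 vC) ∧ (inLam vD ∧ isNorm4 vD) := by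
  decide +kernel

/-- Vector of the lattice from its coordinates. -/
def lamOf (v : V3) (h : inLam v ∧ isNorm4 v) : Lam := ⟨evv v, evv_mem_of_inLam h.1⟩

theorem lamOf_norm (v : V3) (h : inLam v ∧ isNorm4 v) : qip (lamOf v h).1 (lamOf v h).1 = 4 :=
  (qip_self_iff v).2 h.2

section Kernel

variable {g : Equiv.Perm Lam} (hg : g ∈ linG) (hc : ∀ j, g * refl j * g⁻¹ = refl j)

include hg hc in
/-- The products of coordinates are preserved by an element commuting with all reflections. -/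
theorem key_fixed (r : Lam) (hr : qip r.1 r.1 = 4) (u t : Fin 3) :
    star ((g r).1 u) * (g r).1 t = star (r.1 u) * r.1 t := by
  obtain ⟨j, hj⟩ := exists_refl_eq r hr
  have h1 : rf (g r) (linG_norm hg hr) = rf r hr := by
    rw [← conj_rf hg r hr, hj, hc]
  exact key_of_rf_eq _ _ h1 u t

theorem eq_zero_of_star_mul {a : ℍ[ℝ]} (h : star a * a = 0) : a = 0 := by
  rcases mul_eq_zero.1 h with h1 | h1
  · exact star_eq_zero.1 h1
  · exact h1

theorem E4_eq : E ⟨4, 0, 0, 0, 0, 0, 0, 0⟩ = 2 := by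
  rw [← one_add_one_eq_two]
  apply Quaternion.ext <;> simp [ev]
  norm_num

theorem star_two' : star (2 : ℍ[ℝ]) = 2 := by
  rw [← one_add_one_eq_two, star_add, star_one]

theorem E_zero' : E zero = 0 := E_zero

/-- The values of `g` on the vectors `2 eₜ`. -/
theorem diag_of_key {a b c : ℍ[ℝ]} (h0 : star a * a = 4) (h1 : star b * b = 0) (h2 : star c * c = 0) :
    b = 0 ∧ c = 0 ∧ a = 2 * ((1 / 2 : ℝ) • a) ∧ star ((1 / 2 : ℝ) • a) * ((1 / 2 : ℝ) • a) = 1 := by
  refine ⟨eq_zero_of_star_mul h1, eq_zero_of_star_mul h2, (two_mul_half_smul a).symm, ?_⟩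
  rw [Quaternion.star_smul, smul_mul_assoc, mul_smul_comm, h0, smul_smul]
  have : (4 : ℍ[ℝ]) = (4 : ℝ) • (1 : ℍ[ℝ]) := by
    rw [← mul_four_eq_smul, one_mul]
  rw [this, smul_smul]
  norm_num

theorem eq_smul_of {p q : ℍ[ℝ]} {r : ℝ} (h0 : p.re = r * q.re) (h1 : p.imI = r * q.imI)
    (h2 : p.imJ = r * q.imJ) (h3 : p.imK = r * q.imK) : p = r • q := by
  apply Quaternion.ext
  · rw [Quaternion.re_smul]; exact h0
  · rw [Quaternion.imI_smul]; exact h1
  · rw [Quaternion.imJ_smul]; exact h2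
  · rw [Quaternion.imK_smul]; exact h3

/-- The quaternion `j`. -/
def qJ : ℍ[ℝ] := ⟨0, 0, 1, 0⟩

theorem real_of_comm {u : ℍ[ℝ]} (h1 : qI * u = u * qI) (h2 : qJ * u = u * qJ)
    (h3 : star u * u = 1) : u = 1 ∨ u = -1 := by
  have a1 := congrArg QuaternionAlgebra.imJ h1
  have a2 := congrArg QuaternionAlgebra.imK h1
  have a3 := congrArg QuaternionAlgebra.imK h2
  rw [Quaternion.imJ_mul, Quaternion.imJ_mul] at a1
  rw [Quaternion.imK_mul, Quaternion.imK_mul] at a2 a3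
  simp only [qI, qJ] at a1 a2 a3
  have e1 : u.imK = 0 := by linarith
  have e2 : u.imJ = 0 := by linarith
  have e3 : u.imI = 0 := by linarith
  have a4 := congrArg QuaternionAlgebra.re h3
  rw [Quaternion.re_mul] at a4
  simp only [Quaternion.re_star, Quaternion.imI_star, Quaternion.imJ_star, Quaternion.imK_star,
    Quaternion.re_one, e1, e2, e3] at a4
  have a5 : (u.re - 1) * (u.re + 1) = 0 := by linarith
  rcases mul_eq_zero.1 a5 with h | h
  · left
    apply Quaternion.ext <;> simp [e1, e2, e3]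
    linarith
  · right
    apply Quaternion.ext <;> simp [e1, e2, e3]
    linarith

include hg hc in
/-- An element of `linG` commuting with all reflections is `1` or `-1`. -/
theorem eq_one_or_neg : g = 1 ∨ g = negL := by
  obtain ⟨⟨s0, n0⟩, ⟨s1, n1⟩, ⟨s2, n2⟩, ⟨s3, n3⟩, ⟨s4, n4⟩, ⟨s5, n5⟩, ⟨s6, n6⟩⟩ := special_ok
  set e0 := lamOf vE0 ⟨s0, n0⟩ with he0
  set e1 := lamOf vE1 ⟨s1, n1⟩ with he1
  set e2 := lamOf vE2 ⟨s2, n2⟩ with he2
  have k0 := key_fixed hg hc e0 (lamOf_norm _ _)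
  have k1 := key_fixed hg hc e1 (lamOf_norm _ _)
  have k2 := key_fixed hg hc e2 (lamOf_norm _ _)
  have c00 : e0.1 0 = 2 := E4_eq
  have c01 : e0.1 1 = 0 := E_zero
  have c02 : e0.1 2 = 0 := E_zero
  have c10 : e1.1 0 = 0 := E_zero
  have c11 : e1.1 1 = 2 := E4_eq
  have c12 : e1.1 2 = 0 := E_zero
  have c20 : e2.1 0 = 0 := E_zero
  have c21 : e2.1 1 = 0 := E_zero
  have c22 : e2.1 2 = 2 := E4_eq
  have four : star (2 : ℍ[ℝ]) * 2 = 4 := by rw [star_two']; norm_num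
  obtain ⟨z01, z02, t0, u0⟩ := diag_of_key (a := (g e0).1 0) (b := (g e0).1 1) (c := (g e0).1 2)
    (by rw [k0 0 0, c00, four]) (by rw [k0 1 1, c01]; simp) (by rw [k0 2 2, c02]; simp)
  obtain ⟨z10, z12, t1, u1⟩ := diag_of_key (a := (g e1).1 1) (b := (g e1).1 0) (c := (g e1).1 2)
    (by rw [k1 1 1, c11, four]) (by rw [k1 0 0, c10]; simp) (by rw [k1 2 2, c12]; simp)
  obtain ⟨z20, z21, t2, u2⟩ := diag_of_key (a := (g e2).1 2) (b := (g e2).1 0) (c := (g e2).1 1)
    (by rw [k2 2 2, c22, four]) (by rw [k2 0 0, c20]; simp) (by rw [k2 1 1, c21]; simp)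
  set a0 := (1 / 2 : ℝ) • (g e0).1 0 with ha0
  set a1 := (1 / 2 : ℝ) • (g e1).1 1 with ha1
  set a2 := (1 / 2 : ℝ) • (g e2).1 2 with ha2
  -- the action on a vector
  have hx : ∀ (x : Lam), (g x).1 0 = x.1 0 * a0 ∧ (g x).1 1 = x.1 1 * a1 ∧ (g x).1 2 = x.1 2 * a2 := by
    intro x
    have dec : addL x x = addL (addL (smulL (x.1 0) (x.2.1 0) e0) (smulL (x.1 1) (x.2.1 1) e1))
        (smulL (x.1 2) (x.2.1 2) e2) := by
      apply Subtype.ext
      funext t
      show x.1 t + x.1 t = x.1 0 * e0.1 t + x.1 1 * e1.1 t + x.1 2 * e2.1 t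
      fin_cases t
      · show x.1 0 + x.1 0 = x.1 0 * e0.1 0 + x.1 1 * e1.1 0 + x.1 2 * e2.1 0
        rw [c00, c10, c20]; noncomm_ring
      · show x.1 1 + x.1 1 = x.1 0 * e0.1 1 + x.1 1 * e1.1 1 + x.1 2 * e2.1 1
        rw [c01, c11, c21]; noncomm_ring
      · show x.1 2 + x.1 2 = x.1 0 * e0.1 2 + x.1 1 * e1.1 2 + x.1 2 * e2.1 2
        rw [c02, c12, c22]; noncomm_ring
    have h1 := congrArg g dec
    rw [linG_add hg, linG_add hg, linG_add hg, linG_smul hg, linG_smul hg, linG_smul hg] at h1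
    have h2 : ∀ t, (g x).1 t + (g x).1 t = x.1 0 * (g e0).1 t + x.1 1 * (g e1).1 t + x.1 2 * (g e2).1 t := by
      intro t
      exact congrFun (congrArg Subtype.val h1) t
    have cancel : ∀ {p q : ℍ[ℝ]}, p + p = q + q → p = q := by
      intro p q h
      rw [← two_smul ℝ p, ← two_smul ℝ q] at h
      exact smul_right_injective _ (by norm_num : (2 : ℝ) ≠ 0) h
    refine ⟨cancel ?_, cancel ?_, cancel ?_⟩
    · rw [h2 0, z10, z20, t0]
      noncomm_ring
    · rw [h2 1, z01, z21, t1]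
      noncomm_ring
    · rw [h2 2, z02, z12, t2]
      noncomm_ring
  -- relations from the special vectors
  have rel : ∀ (v : V3) (hv : inLam v ∧ isNorm4 v),
      star a0 * (star (E v.1) * E v.2.1) * a1 = star (E v.1) * E v.2.1 ∧
      star a0 * (star (E v.1) * E v.2.2) * a2 = star (E v.1) * E v.2.2 := by
    intro v hv
    have k := key_fixed hg hc (lamOf v hv) (lamOf_norm _ _)
    have h1 := hx (lamOf v hv)
    have e01 := k 0 1
    have e02 := k 0 2
    rw [h1.1, h1.2.1, star_mul] at e01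
    rw [h1.1, h1.2.2, star_mul] at e02
    have e3 : (lamOf v hv).1 0 = E v.1 := rfl
    have e4 : (lamOf v hv).1 1 = E v.2.1 := rfl
    have e5 : (lamOf v hv).1 2 = E v.2.2 := rfl
    rw [e3, e4] at e01
    rw [e3, e5] at e02
    constructor
    · have : star a0 * (star (E v.1) * E v.2.1) * a1 = star a0 * star (E v.1) * (E v.2.1 * a1) := by noncomm_ring
      rw [this]
      exact e01
    · have : star a0 * (star (E v.1) * E v.2.2) * a2 = star a0 * star (E v.1) * (E v.2.2 * a2) := by noncomm_ring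
      rw [this]
      exact e02
  have ra := (rel vA ⟨s3, n3⟩).1
  have rb := (rel vB ⟨s4, n4⟩).2
  have rc := (rel vC ⟨s5, n5⟩).1
  have rd := (rel vD ⟨s6, n6⟩).1
  have va : star (E vA.1) * E vA.2.1 = (-2 : ℝ) • (1 : ℍ[ℝ]) := by
    rw [E_conj, E_mul_of (z := ⟨-4, 0, 0, 0, 0, 0, 0, 0⟩) (by decide)]
    apply Quaternion.ext <;> simp [ev] <;> norm_num
  have vb : star (E vB.1) * E vB.2.2 = (-2 : ℝ) • (1 : ℍ[ℝ]) := by
    rw [E_conj, E_mul_of (z := ⟨-4, 0, 0, 0, 0, 0, 0, 0⟩) (by decide)]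
    apply Quaternion.ext <;> simp [ev] <;> norm_num
  have vc : star (E vC.1) * E vC.2.1 = (-2 : ℝ) • qI := by
    rw [E_conj, E_mul_of (z := ⟨0, 0, -4, 0, 0, 0, 0, 0⟩) (by decide)]
    apply eq_smul_of <;> simp [ev, qI] <;> norm_num
  have vd : star (E vD.1) * E vD.2.1 = (-2 : ℝ) • qJ := by
    rw [E_conj, E_mul_of (z := ⟨0, 0, 0, 0, -4, 0, 0, 0⟩) (by decide)]
    apply eq_smul_of <;> simp [ev, qJ] <;> norm_num
  rw [va] at ra
  rw [vb] at rb
  rw [vc] at rc
  rw [vd] at rd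
  have cancel2 : ∀ {p q : ℍ[ℝ]}, (-2 : ℝ) • p = (-2 : ℝ) • q → p = q :=
    fun h => smul_right_injective _ (by norm_num : (-2 : ℝ) ≠ 0) h
  have ra' : star a0 * a1 = 1 := by
    apply cancel2
    rw [← ra]
    simp only [mul_smul_comm, smul_mul_assoc, mul_one]
  have rb' : star a0 * a2 = 1 := by
    apply cancel2
    rw [← rb]
    simp only [mul_smul_comm, smul_mul_assoc, mul_one]
  have rc' : star a0 * qI * a1 = qI := by
    apply cancel2
    rw [← rc]
    simp only [mul_smul_comm, smul_mul_assoc, mul_one]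
  have rd' : star a0 * qJ * a1 = qJ := by
    apply cancel2
    rw [← rd]
    simp only [mul_smul_comm, smul_mul_assoc, mul_one]
  have hs : a0 * star a0 = 1 := by
    rw [Quaternion.self_mul_star, ← Quaternion.star_mul_self, u0]
  have e1' : a1 = a0 := by
    calc a1 = (a0 * star a0) * a1 := by rw [hs, one_mul]
      _ = a0 * (star a0 * a1) := mul_assoc _ _ _
      _ = a0 := by rw [ra', mul_one]
  have e2' : a2 = a0 := by
    calc a2 = (a0 * star a0) * a2 := by rw [hs, one_mul]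
      _ = a0 * (star a0 * a2) := mul_assoc _ _ _
      _ = a0 := by rw [rb', mul_one]
  have comm : ∀ {q : ℍ[ℝ]}, star a0 * q * a0 = q → q * a0 = a0 * q := by
    intro q h
    calc q * a0 = (a0 * star a0) * q * a0 := by rw [hs, one_mul]
      _ = a0 * (star a0 * q * a0) := by noncomm_ring
      _ = a0 * q := by rw [h]
  rw [e1'] at rc' rd'
  have hfin := real_of_comm (comm rc') (comm rd') u0
  rcases hfin with h | h
  · left
    ext1 x
    apply Subtype.ext
    funext t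
    have h1 := hx x
    rw [e1', e2', h] at h1
    fin_cases t
    · simpa using h1.1
    · simpa using h1.2.1
    · simpa using h1.2.2
  · right
    ext1 x
    apply Subtype.ext
    funext t
    have h1 := hx x
    rw [e1', e2', h] at h1
    fin_cases t
    · simpa [negL_coe] using h1.1
    · simpa [negL_coe] using h1.2.1
    · simpa [negL_coe] using h1.2.2

end Kernel

/-! ### The negative as a product of reflections -/

theorem half_mul_two (a : ℍ[ℝ]) : (1 / 2 : ℝ) • (a * 2) = a := by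
  rw [mul_two_eq_smul, smul_smul]
  norm_num

theorem qip_lamE0 (x : Lam) (h) : qip x.1 (lamOf vE0 h).1 = x.1 0 * 2 := by
  have c0 : (lamOf vE0 h).1 0 = 2 := E4_eq
  have c1 : (lamOf vE0 h).1 1 = 0 := E_zero
  have c2 : (lamOf vE0 h).1 2 = 0 := E_zero
  rw [qip_apply, c0, c1, c2, star_two']
  simp

theorem qip_lamE1 (x : Lam) (h) : qip x.1 (lamOf vE1 h).1 = x.1 1 * 2 := by
  have c0 : (lamOf vE1 h).1 0 = 0 := E_zero
  have c1 : (lamOf vE1 h).1 1 = 2 := E4_eq
  have c2 : (lamOf vE1 h).1 2 = 0 := E_zero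
  rw [qip_apply, c0, c1, c2, star_two']
  simp

theorem qip_lamE2 (x : Lam) (h) : qip x.1 (lamOf vE2 h).1 = x.1 2 * 2 := by
  have c0 : (lamOf vE2 h).1 0 = 0 := E_zero
  have c1 : (lamOf vE2 h).1 1 = 0 := E_zero
  have c2 : (lamOf vE2 h).1 2 = 2 := E4_eq
  rw [qip_apply, c0, c1, c2, star_two']
  simp

theorem sub_self_mul_two (a : ℍ[ℝ]) : a - a * 2 = - a := by
  noncomm_ring

/-- The product of the three coordinate reflections is `-1`. -/
theorem negL_eq (h0 h1 h2) : negL = rf (lamOf vE0 h0) (lamOf_norm _ h0) * rf (lamOf vE1 h1) (lamOf_norm _ h1) *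
    rf (lamOf vE2 h2) (lamOf_norm _ h2) := by
  ext1 x
  apply Subtype.ext
  funext t
  simp only [Equiv.Perm.mul_apply]
  rw [rf_coe, qrefl_apply, qip_lamE0, half_mul_two, rf_coe, qrefl_apply, qip_lamE1, half_mul_two, rf_coe, qrefl_apply,
    qip_lamE2, half_mul_two, negL_coe]
  have c00 : (lamOf vE0 h0).1 0 = 2 := E4_eq
  have c01 : (lamOf vE0 h0).1 1 = 0 := E_zero
  have c02 : (lamOf vE0 h0).1 2 = 0 := E_zero
  have c10 : (lamOf vE1 h1).1 0 = 0 := E_zero
  have c11 : (lamOf vE1 h1).1 1 = 2 := E4_eq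
  have c12 : (lamOf vE1 h1).1 2 = 0 := E_zero
  have c20 : (lamOf vE2 h2).1 0 = 0 := E_zero
  have c21 : (lamOf vE2 h2).1 1 = 0 := E_zero
  have c22 : (lamOf vE2 h2).1 2 = 2 := E4_eq
  have q0 : qrefl (lamOf vE2 h2).1 x.1 0 = x.1 0 := by rw [qrefl_apply, c20, mul_zero, sub_zero]
  have q1 : qrefl (lamOf vE2 h2).1 x.1 1 = x.1 1 := by rw [qrefl_apply, c21, mul_zero, sub_zero]
  have q2 : qrefl (lamOf vE1 h1).1 (qrefl (lamOf vE2 h2).1 x.1) 0 = x.1 0 := by
    rw [qrefl_apply, c10, mul_zero, sub_zero, q0]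
  show - x.1 t = x.1 t - x.1 2 * (lamOf vE2 h2).1 t - qrefl (lamOf vE2 h2).1 x.1 1 * (lamOf vE1 h1).1 t -
      qrefl (lamOf vE1 h1).1 (qrefl (lamOf vE2 h2).1 x.1) 0 * (lamOf vE0 h0).1 t
  rw [q1, q2]
  fin_cases t
  · show - x.1 0 = x.1 0 - x.1 2 * (lamOf vE2 h2).1 0 - x.1 1 * (lamOf vE1 h1).1 0 - x.1 0 * (lamOf vE0 h0).1 0
    rw [c20, c10, c00]
    noncomm_ring
  · show - x.1 1 = x.1 1 - x.1 2 * (lamOf vE2 h2).1 1 - x.1 1 * (lamOf vE1 h1).1 1 - x.1 0 * (lamOf vE0 h0).1 1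
    rw [c21, c11, c01]
    noncomm_ring
  · show - x.1 2 = x.1 2 - x.1 2 * (lamOf vE2 h2).1 2 - x.1 1 * (lamOf vE1 h1).1 2 - x.1 0 * (lamOf vE0 h0).1 2
    rw [c22, c12, c02]
    noncomm_ring

theorem rf_mem_twoJ2 (r : Lam) (hr : qip r.1 r.1 = 4) : rf r hr ∈ twoJ2 :=
  Subgroup.subset_closure (isIcoReflection_iff.2 ⟨r, hr, rfl⟩)

theorem negL_mem : negL ∈ twoJ2 := by
  obtain ⟨⟨s0, n0⟩, ⟨s1, n1⟩, ⟨s2, n2⟩, -⟩ := special_ok
  rw [negL_eq ⟨s0, n0⟩ ⟨s1, n1⟩ ⟨s2, n2⟩]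
  exact twoJ2.mul_mem (twoJ2.mul_mem (rf_mem_twoJ2 _ _) (rf_mem_twoJ2 _ _)) (rf_mem_twoJ2 _ _)

end Q8

end Cfsg.Agent.Lib.J2Ico

end
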