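import Cfsg.Agent.Lib.J2Ico.Arith

/-!
# The icosian ring in coordinates

`icosians` is the set of `ev 2 x`, with `x` satisfying four parity checks.
-/

set_option autoImplicit false
set_option linter.unusedSectionVars false

namespace Cfsg.Agent.Lib.J2Ico

open Cfsg.Spor Quaternion

namespace Q8

/-- The four parity checks of the icosian ring. -/
def inI (x : Q8) : Prop :=
  (x.a2 - x.b0 - x.a1 - x.b1) % 2 = 0 ∧ (x.b2 - x.a0 - x.b0 - x.a1) % 2 = 0 ∧
  (x.a3 - x.a0 - x.b0 - x.b1) % 2 = 0 ∧ (x.b3 - x.a0 - x.a1 - x.b1) % 2 = 0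

instance : DecidablePred inI := fun x => by unfold inI; infer_instance

/-- Halving of coordinates. -/
def half (x : Q8) : Q8 :=
  ⟨x.a0 / 2, x.b0 / 2, x.a1 / 2, x.b1 / 2, x.a2 / 2, x.b2 / 2, x.a3 / 2, x.b3 / 2⟩

/-- The quaternion of numerators over `2`. -/
noncomputable abbrev E (x : Q8) : ℍ[ℝ] := ev 2 x

/-- Zero. -/
def zero : Q8 := ⟨0, 0, 0, 0, 0, 0, 0, 0⟩

/-- One. -/
def one : Q8 := ⟨2, 0, 0, 0, 0, 0, 0, 0⟩

theorem E_zero : E zero = 0 := by
  apply Quaternion.ext <;> simp [ev, zero]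

theorem E_one : E one = 1 := by
  apply Quaternion.ext <;> simp [ev, one]

theorem E_add (x y : Q8) : E x + E y = E (add x y) := ev_add x y
theorem E_sub (x y : Q8) : E x - E y = E (sub x y) := ev_sub x y
theorem E_neg (x : Q8) : - E x = E (neg x) := ev_neg x
theorem E_conj (x : Q8) : star (E x) = E (conj x) := ev_conj x

theorem E_inj {x y : Q8} (h : E x = E y) : x = y := ev_inj (by norm_num) h

theorem E_mul_eq (x y : Q8) : E x * E y = ev 4 (mul x y) := by
  have := ev_mul (d := 2) (d' := 2) (by norm_num) (by norm_num) x y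
  rw [this]
  norm_num

theorem E_mul_of {x y z : Q8} (h : mul x y = smul 2 z) : E x * E y = E z := by
  rw [E_mul_eq, h]
  have := ev_smul (d := 2) (k := 2) (by norm_num) z
  have e : (((2 : ℤ) : ℝ) * 2) = 4 := by norm_num
  rwa [e] at this

theorem E_smul (k : ℤ) (x : Q8) : E (smul k x) = k • E x := by
  have e : ∀ q : ℍ[ℝ], k • q = (k : ℝ) • q := fun q => by
    rw [Int.cast_smul_eq_zsmul]
  rw [e]
  apply Quaternion.ext
  · rw [Quaternion.re_smul]; simp only [ev, smul, smul_eq_mul]; push_cast; ring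
  · rw [Quaternion.imI_smul]; simp only [ev, smul, smul_eq_mul]; push_cast; ring
  · rw [Quaternion.imJ_smul]; simp only [ev, smul, smul_eq_mul]; push_cast; ring
  · rw [Quaternion.imK_smul]; simp only [ev, smul, smul_eq_mul]; push_cast; ring

theorem inI_add {x y : Q8} (hx : inI x) (hy : inI y) : inI (add x y) := by
  obtain ⟨h1, h2, h3, h4⟩ := hx
  obtain ⟨h5, h6, h7, h8⟩ := hy
  simp only [inI, add]
  omega

theorem inI_neg {x : Q8} (hx : inI x) : inI (neg x) := by
  obtain ⟨h1, h2, h3, h4⟩ := hx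
  simp only [inI, neg]
  omega

theorem inI_sub {x y : Q8} (hx : inI x) (hy : inI y) : inI (sub x y) := by
  obtain ⟨h1, h2, h3, h4⟩ := hx
  obtain ⟨h5, h6, h7, h8⟩ := hy
  simp only [inI, sub]
  omega

theorem inI_conj {x : Q8} (hx : inI x) : inI (conj x) := by
  obtain ⟨h1, h2, h3, h4⟩ := hx
  simp only [inI, conj]
  omega

theorem inI_smul (k : ℤ) {x : Q8} (hx : inI x) : inI (smul k x) := by
  obtain ⟨h1, h2, h3, h4⟩ := hx
  simp only [inI, smul]
  have e1 : k * x.a2 - k * x.b0 - k * x.a1 - k * x.b1 = k * (x.a2 - x.b0 - x.a1 - x.b1) := by ring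
  have e2 : k * x.b2 - k * x.a0 - k * x.b0 - k * x.a1 = k * (x.b2 - x.a0 - x.b0 - x.a1) := by ring
  have e3 : k * x.a3 - k * x.a0 - k * x.b0 - k * x.b1 = k * (x.a3 - x.a0 - x.b0 - x.b1) := by ring
  have e4 : k * x.b3 - k * x.a0 - k * x.a1 - k * x.b1 = k * (x.b3 - x.a0 - x.a1 - x.b1) := by ring
  rw [e1, e2, e3, e4]
  refine ⟨?_, ?_, ?_, ?_⟩ <;> apply Int.emod_eq_zero_of_dvd <;> apply Dvd.dvd.mul_left <;>
    apply Int.dvd_of_emod_eq_zero <;> assumption

/-- An additive basis of the icosian ring. -/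
def basis : Fin 8 → Q8
  | 0 => ⟨1, 0, 0, 0, 0, 1, 1, 1⟩
  | 1 => ⟨0, 1, 0, 0, 1, 1, 1, 0⟩
  | 2 => ⟨0, 0, 1, 0, 1, 1, 0, 1⟩
  | 3 => ⟨0, 0, 0, 1, 1, 0, 1, 1⟩
  | 4 => ⟨0, 0, 0, 0, 2, 0, 0, 0⟩
  | 5 => ⟨0, 0, 0, 0, 0, 2, 0, 0⟩
  | 6 => ⟨0, 0, 0, 0, 0, 0, 2, 0⟩
  | 7 => ⟨0, 0, 0, 0, 0, 0, 0, 2⟩

/-- The additive span of the basis. -/
noncomputable def span : AddSubgroup ℍ[ℝ] := AddSubgroup.closure (Set.range fun i : Fin 8 => E (basis i))

theorem E_mem_span_of {x : Q8} (hx : inI x) : E x ∈ span := by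
  obtain ⟨h1, h2, h3, h4⟩ := hx
  have hb : ∀ i, E (basis i) ∈ span := fun i => AddSubgroup.subset_closure ⟨i, rfl⟩
  have hs : ∀ (k : ℤ) i, E (smul k (basis i)) ∈ span := fun k i => by
    rw [E_smul]; exact AddSubgroup.zsmul_mem _ (hb i) k
  have key : x = add (smul x.a0 (basis 0)) (add (smul x.b0 (basis 1)) (add (smul x.a1 (basis 2))
      (add (smul x.b1 (basis 3)) (add (smul ((x.a2 - x.b0 - x.a1 - x.b1) / 2) (basis 4))
      (add (smul ((x.b2 - x.a0 - x.b0 - x.a1) / 2) (basis 5))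
      (add (smul ((x.a3 - x.a0 - x.b0 - x.b1) / 2) (basis 6))
        (smul ((x.b3 - x.a0 - x.a1 - x.b1) / 2) (basis 7)))))))) := by
    apply ext' <;> simp only [add, smul, basis] <;> omega
  rw [key]
  simp only [← E_add]
  exact span.add_mem (hs _ _) (span.add_mem (hs _ _) (span.add_mem (hs _ _) (span.add_mem (hs _ _)
    (span.add_mem (hs _ _) (span.add_mem (hs _ _) (span.add_mem (hs _ _) (hs _ _)))))))

/-- The additive subgroup of elements satisfying the parity checks. -/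
noncomputable def ico : AddSubgroup ℍ[ℝ] where
  carrier := {q | ∃ x, inI x ∧ q = E x}
  add_mem' := by
    rintro _ _ ⟨x, hx, rfl⟩ ⟨y, hy, rfl⟩
    exact ⟨_, inI_add hx hy, E_add x y⟩
  zero_mem' := ⟨zero, by decide, E_zero.symm⟩
  neg_mem' := by
    rintro _ ⟨x, hx, rfl⟩
    exact ⟨_, inI_neg hx, E_neg x⟩

theorem mem_ico {q : ℍ[ℝ]} : q ∈ ico ↔ ∃ x, inI x ∧ q = E x := Iff.rfl

/-- The check on the basis. -/
theorem basis_mul_ok : ∀ i j : Fin 8, inI (half (mul (basis i) (basis j))) ∧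
    mul (basis i) (basis j) = smul 2 (half (mul (basis i) (basis j))) := by
  decide +kernel

theorem mul_mem_ico {a b : ℍ[ℝ]} (ha : a ∈ ico) (hb : b ∈ ico) : a * b ∈ ico := by
  obtain ⟨x, hx, rfl⟩ := ha
  obtain ⟨y, hy, rfl⟩ := hb
  have hx' := E_mem_span_of hx
  have hy' := E_mem_span_of hy
  have h1 : ∀ i j : Fin 8, E (basis i) * E (basis j) ∈ ico := fun i j => by
    obtain ⟨h2, h3⟩ := basis_mul_ok i j
    exact ⟨_, h2, E_mul_of h3⟩
  have h2 : ∀ j : Fin 8, ∀ a ∈ span, a * E (basis j) ∈ ico := by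
    intro j
    have : span ≤ ico.comap (AddMonoidHom.mulRight (E (basis j))) := by
      rw [span, AddSubgroup.closure_le]
      rintro _ ⟨i, rfl⟩
      exact h1 i j
    exact fun a ha => this ha
  have h3 : ∀ a ∈ span, ∀ b ∈ span, a * b ∈ ico := by
    intro a ha
    have : span ≤ ico.comap (AddMonoidHom.mulLeft a) := by
      rw [span, AddSubgroup.closure_le]
      rintro _ ⟨j, rfl⟩
      exact h2 j a ha
    exact fun b hb => this hb
  exact h3 _ hx' _ hy'

/-- The subring of elements satisfying the parity checks. -/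
noncomputable def icoRing : Subring ℍ[ℝ] where
  carrier := {q | ∃ x, inI x ∧ q = E x}
  add_mem' := ico.add_mem
  zero_mem' := ico.zero_mem
  neg_mem' := ico.neg_mem
  mul_mem' := mul_mem_ico
  one_mem' := ⟨one, by decide, E_one.symm⟩

/-- The quaternion `i`. -/
def Ei : Q8 := ⟨0, 0, 2, 0, 0, 0, 0, 0⟩

/-- The second generator. -/
def Gg : Q8 := ⟨1, 0, 1, -1, 0, 0, 0, 1⟩

theorem qI_eq : qI = E Ei := by
  apply Quaternion.ext <;> simp [qI, ev, Ei]

theorem gen2_eq : (⟨1 / 2, sig / 2, 0, tau / 2⟩ : ℍ[ℝ]) = E Gg := by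
  have := sig_eq
  apply Quaternion.ext <;> simp [ev, Gg, this]
  ring

section Mem

/-- Membership in the closure. -/
abbrev M (x : Q8) : Prop := E x ∈ icosians

theorem M_mul {x y : Q8} (z : Q8) (h : mul x y = smul 2 z) (hx : M x) (hy : M y) : M z := by
  show E z ∈ icosians
  rw [← E_mul_of h]
  exact icosians.mul_mem hx hy

theorem M_add {x y : Q8} (hx : M x) (hy : M y) : M (add x y) := by
  show E _ ∈ icosians
  rw [← E_add]
  exact icosians.add_mem hx hy

theorem M_sub {x y : Q8} (hx : M x) (hy : M y) : M (sub x y) := by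
  show E _ ∈ icosians
  rw [← E_sub]
  exact icosians.sub_mem hx hy

theorem M_neg {x : Q8} (hx : M x) : M (neg x) := by
  show E _ ∈ icosians
  rw [← E_neg]
  exact icosians.neg_mem hx

theorem M_smul (k : ℤ) {x : Q8} (hx : M x) : M (smul k x) := by
  show E _ ∈ icosians
  rw [E_smul]
  exact zsmul_mem hx k

theorem M_one : M one := by
  show E one ∈ icosians
  rw [E_one]
  exact icosians.one_mem

theorem M_i : M Ei := by
  show E Ei ∈ icosians
  rw [← qI_eq]
  exact Subring.subset_closure (Or.inl rfl)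

theorem M_G : M Gg := by
  show E Gg ∈ icosians
  rw [← gen2_eq]
  exact Subring.subset_closure (Or.inr rfl)

/-- `τ j`. -/
def Etj : Q8 := ⟨0, 0, 0, 0, 0, 2, 0, 0⟩
/-- `τ`. -/
def Et : Q8 := ⟨0, 2, 0, 0, 0, 0, 0, 0⟩
/-- `j`. -/
def Ej : Q8 := ⟨0, 0, 0, 0, 2, 0, 0, 0⟩
/-- `k`. -/
def Ek : Q8 := ⟨0, 0, 0, 0, 0, 0, 2, 0⟩
/-- `τ i`. -/
def Eti : Q8 := ⟨0, 0, 0, 2, 0, 0, 0, 0⟩
/-- `τ k`. -/
def Etk : Q8 := ⟨0, 0, 0, 0, 0, 0, 0, 2⟩

theorem M_tj : M Etj := by
  have h1 := M_mul (half (mul Gg Ei)) (by decide) M_G M_i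
  have h2 := M_mul (half (mul Ei Gg)) (by decide) M_i M_G
  have h3 := M_sub h1 h2
  have : sub (half (mul Gg Ei)) (half (mul Ei Gg)) = Etj := by decide
  rwa [this] at h3

theorem M_t : M Et := by
  have h1 := M_mul (half (mul Etj Etj)) (by decide) M_tj M_tj
  have h2 := M_sub (M_neg h1) M_one
  have : sub (neg (half (mul Etj Etj))) one = Et := by decide
  rwa [this] at h2

theorem M_j : M Ej := by
  have h1 := M_sub M_t M_one
  exact M_mul Ej (by decide) h1 M_tj

theorem M_k : M Ek := M_mul Ek (by decide) M_i M_j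

theorem M_ti : M Eti := M_mul Eti (by decide) M_t M_i

theorem M_tk : M Etk := M_mul Etk (by decide) M_t M_k

theorem M_tG : M (half (mul Et Gg)) := M_mul _ (by decide) M_t M_G

theorem M_iG : M (half (mul Ei Gg)) := M_mul _ (by decide) M_i M_G

theorem M_jG : M (half (mul Ej Gg)) := M_mul _ (by decide) M_j M_G

theorem M_kG : M (half (mul Ek Gg)) := M_mul _ (by decide) M_k M_G

theorem M_even (y : Q8) : M (smul 2 y) := by
  have key : smul 2 y = add (smul y.a0 one) (add (smul y.b0 Et) (add (smul y.a1 Ei) (add (smul y.b1 Eti)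
      (add (smul y.a2 Ej) (add (smul y.b2 Etj) (add (smul y.a3 Ek) (smul y.b3 Etk))))))) := by
    apply ext' <;> simp only [add, smul, one, Et, Ei, Eti, Ej, Etj, Ek, Etk] <;> ring
  rw [key]
  exact M_add (M_smul _ M_one) (M_add (M_smul _ M_t) (M_add (M_smul _ M_i) (M_add (M_smul _ M_ti)
    (M_add (M_smul _ M_j) (M_add (M_smul _ M_tj) (M_add (M_smul _ M_k) (M_smul _ M_tk)))))))

theorem M_of {x w : Q8} (hw : M w) (h : x = add w (smul 2 (half (sub x w)))) : M x := by
  rw [h]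
  exact M_add hw (M_even _)

theorem M_basis : ∀ i, M (basis i) := by
  intro i
  fin_cases i
  · exact M_of (w := add (half (mul Et Gg)) (half (mul Ei Gg))) (M_add M_tG M_iG) (by decide)
  · exact M_of (w := half (mul Ek Gg)) M_kG (by decide)
  · exact M_of (w := add (half (mul Et Gg)) (half (mul Ek Gg))) (M_add M_tG M_kG) (by decide)
  · exact M_of (w := half (mul Ej Gg)) M_jG (by decide)
  · exact M_j
  · exact M_tj
  · exact M_k
  · exact M_tk

end Mem

theorem span_le_icosians : span ≤ icosians.toAddSubgroup := by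
  rw [span, AddSubgroup.closure_le]
  rintro _ ⟨i, rfl⟩
  exact M_basis i

theorem icosians_le : icosians ≤ icoRing := by
  rw [icosians, Subring.closure_le]
  rintro _ (rfl | rfl)
  · exact ⟨Ei, by decide, qI_eq⟩
  · exact ⟨Gg, by decide, gen2_eq⟩

/-- The coordinates of the icosian ring. -/
theorem mem_icosians {q : ℍ[ℝ]} : q ∈ icosians ↔ ∃ x, inI x ∧ q = E x := by
  constructor
  · intro h
    exact icosians_le h
  · rintro ⟨x, hx, rfl⟩
    exact span_le_icosians (E_mem_span_of hx)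

theorem E_mem {x : Q8} (hx : inI x) : E x ∈ icosians := mem_icosians.2 ⟨x, hx, rfl⟩

/-- The icosian ring is closed under conjugation. -/
theorem star_mem {q : ℍ[ℝ]} (hq : q ∈ icosians) : star q ∈ icosians := by
  obtain ⟨x, hx, rfl⟩ := mem_icosians.1 hq
  rw [E_conj]
  exact E_mem (inI_conj hx)

/-- Coordinates of products. -/
theorem mul_of_inI {x y : Q8} (hx : inI x) (hy : inI y) :
    inI (half (mul x y)) ∧ mul x y = smul 2 (half (mul x y)) := by
  obtain ⟨z, hz, e⟩ := mem_icosians.1 (icosians.mul_mem (E_mem hx) (E_mem hy))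
  have h1 : ev 4 (mul x y) = ev 4 (smul 2 z) := by
    rw [← E_mul_eq, e]
    have := ev_smul (d := 2) (k := 2) (by norm_num) z
    have e : (((2 : ℤ) : ℝ) * 2) = 4 := by norm_num
    rw [e] at this
    exact this.symm
  have h2 : mul x y = smul 2 z := ev_inj (by norm_num) h1
  have h3 : half (mul x y) = z := by
    rw [h2]
    apply ext' <;> simp only [half, smul] <;> omega
  rw [h3]
  exact ⟨hz, h2⟩

/-- The product on icosians in coordinates. -/
def mulI (x y : Q8) : Q8 := half (mul x y)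

theorem inI_mulI {x y : Q8} (hx : inI x) (hy : inI y) : inI (mulI x y) := (mul_of_inI hx hy).1

theorem E_mulI {x y : Q8} (hx : inI x) (hy : inI y) : E x * E y = E (mulI x y) :=
  E_mul_of (mul_of_inI hx hy).2

end Q8

end Cfsg.Agent.Lib.J2Ico
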